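import Cfsg.Agent.H17.LPDefs

set_option autoImplicit false

namespace Cfsg.Agent.H6.LpLev

open Cfsg.Agent.H17.LP Matrix

universe u

def pU (a : M5) : M5 := fun i j => if (i : ℕ) < 3 ∧ (j : ℕ) < 3 then a i j else 0

theorem pU_add (a b : M5) : pU (a + b) = pU a + pU b := by
  ext i j; simp only [pU, Matrix.add_apply]; split_ifs <;> simp

theorem pU_alt {a : M5} (h : Alt a) : Alt (pU a) :=
  ⟨by
    ext i j; simp only [pU, transpose_apply, and_comm]; rw [h.symm j i], fun i => by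
    simp only [pU, h.2, ite_self]⟩

theorem mem_U0 {a : M5} (h : Alt a) : (⟨a, 1, h⟩ : N0) ∈ U0 ↔ pU a = a := by
  unfold U0
  rw [mem_Pat]
  constructor
  · rintro ⟨h1, -⟩
    ext i j
    simp only [pU]
    split_ifs with c
    · rfl
    · refine (h1 i j ?_).symm
      simp only [decide_eq_false_iff_not]
      omega
  · intro e
    refine ⟨fun i j c => ?_, fun _ _ _ => rfl⟩
    change a i j = 0
    rw [← e]
    simp only [decide_eq_false_iff_not] at c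
    simp only [pU]
    rw [if_neg (by omega)]

theorem pU_pU (a : M5) : pU (pU a) = pU a := by
  ext i j; simp only [pU]; split_ifs <;> rfl

theorem x12 : (X 1 2).1 = !![1, 1, 0, 0, 0; 0, 1, 0, 0, 0; 0, 0, 1, 0, 0; 0, 0, 0, 1, 0; 0, 0, 0, 0, 1] := by
  decide
theorem x23 : (X 2 3).1 = !![1, 0, 0, 0, 0; 0, 1, 1, 0, 0; 0, 0, 1, 0, 0; 0, 0, 0, 1, 0; 0, 0, 0, 0, 1] := by
  decide
theorem x45 : (X 4 5).1 = !![1, 0, 0, 0, 0; 0, 1, 0, 0, 0; 0, 0, 1, 0, 0; 0, 0, 0, 1, 1; 0, 0, 0, 0, 1] := by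
  decide

theorem p12 (a : M5) : pU ((X 1 2).1 * a * (X 1 2).1ᵀ) = (X 1 2).1 * pU a * (X 1 2).1ᵀ := by
  rw [x12]; ext i j
  fin_cases i <;> fin_cases j <;> simp [pU, Matrix.mul_apply, Matrix.vecMul, dotProduct, Fin.sum_univ_five]

theorem p23 (a : M5) : pU ((X 2 3).1 * a * (X 2 3).1ᵀ) = (X 2 3).1 * pU a * (X 2 3).1ᵀ := by
  rw [x23]; ext i j
  fin_cases i <;> fin_cases j <;> simp [pU, Matrix.mul_apply, Matrix.vecMul, dotProduct, Fin.sum_univ_five]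

theorem p45 (a : M5) : pU ((X 4 5).1 * a * (X 4 5).1ᵀ) = (X 4 5).1 * pU a * (X 4 5).1ᵀ := by
  rw [x45]; ext i j
  fin_cases i <;> fin_cases j <;> simp [pU, Matrix.mul_apply, Matrix.vecMul, dotProduct, Fin.sum_univ_five]

def E (i j : Fin 5) (e : F) : M5 := single i j e + single j i e

theorem shape1 {c : M5} (h : Alt c) (hp : pU c = c) (hr : ∀ k, c (ix 2) k = 0) :
    c = E 0 2 (c 0 2) := by
  have s := h.symm
  have d := h.2
  have z : ∀ i j : Fin 5, ¬ ((i : ℕ) < 3 ∧ (j : ℕ) < 3) → c i j = 0 := fun i j hc => by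
    rw [← hp]; simp only [pU]; rw [if_neg hc]
  have r : ∀ k, c 1 k = 0 := hr
  have r' : ∀ k, c k 1 = 0 := fun k => by rw [s]; exact r k
  ext i j
  fin_cases i <;> fin_cases j <;> simp [E, single, d, r, r', s 2 0] <;> exact z _ _ (by decide)

theorem shape2 {c : M5} (h : Alt c) (hp : pU c = c) (hr : ∀ k, c (ix 3) k = 0) :
    c = E 0 1 (c 0 1) := by
  have s := h.symm
  have d := h.2
  have z : ∀ i j : Fin 5, ¬ ((i : ℕ) < 3 ∧ (j : ℕ) < 3) → c i j = 0 := fun i j hc => by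
    rw [← hp]; simp only [pU]; rw [if_neg hc]
  have r : ∀ k, c 2 k = 0 := hr
  have r' : ∀ k, c k 2 = 0 := fun k => by rw [s]; exact r k
  ext i j
  fin_cases i <;> fin_cases j <;> simp [E, single, d, r, r', s 1 0] <;> exact z _ _ (by decide)

theorem fin_u : ∀ e f : F, Alt (E 1 2 e + E 0 2 f) ∧ pU (E 1 2 e + E 0 2 f) = E 1 2 e + E 0 2 f ∧
    (E 1 2 e + E 0 2 f) + E 0 2 e = (X 1 2).1 * (E 1 2 e + E 0 2 f) * (X 1 2).1ᵀ ∧
    (E 1 2 e + E 0 2 f) + E 0 1 f = (X 2 3).1 * (E 1 2 e + E 0 2 f) * (X 2 3).1ᵀ ∧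
    (X 4 5).1 * (E 1 2 e + E 0 2 f) * (X 4 5).1ᵀ = E 1 2 e + E 0 2 f := by decide

variable {N : Type u} [Group N] {ι : M5 → N} {π : N →* SL5} {δ : N} {Fs R : Subgroup N}

theorem iota_zero (h : Ex ι π) : ι 0 = 1 := by
  have := h.add 0 0 Alt.zero Alt.zero
  rw [add_zero] at this
  exact mul_left_cancel (a := ι 0) (by rw [← this, mul_one])

theorem pi_iota (h : Ex ι π) {a : M5} (ha : Alt a) : π (ι a) = 1 := (h.ker _).2 ⟨a, ha, rfl⟩

theorem sq_eq (h : Ex ι π) {a u : M5} (ha : Alt a) (hu : Alt u) {n : N} (hn : n * n = ι u) :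
    ι a * n * (ι a * n) = ι (a + (π n).1 * a * (π n).1ᵀ + u) := by
  rw [h.add _ _ (ha.add (ha.act _)) hu, h.add _ _ ha (ha.act _), ← h.act n a ha, ← hn]
  group

theorem lift (h : Ex ι π) (l : Lf ι π δ Fs R) {g : SL5}
    (hg : ∀ a, pU (g.1 * a * g.1ᵀ) = g.1 * pU a * g.1ᵀ) (hn : ∃ n ∈ R, π n = g)
    (hb : ∃ b, π b = g ∧ b * b = 1) : ∃ a ∈ R, π a = g ∧ a * a = 1 := by
  obtain ⟨n, hR, hn⟩ := hn
  obtain ⟨b, hb, hb2⟩ := hb
  obtain ⟨a, ha, e⟩ := (h.ker (b * n⁻¹)).1 (by rw [map_mul, map_inv, hb, hn, mul_inv_cancel])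
  obtain ⟨u, hu, e2⟩ := (h.ker (n * n)).1 (by rw [map_mul, hn, ← hb, ← map_mul, hb2, map_one])
  have hU : pU u = u := (mem_U0 hu).1 ((l.rA u hu).1 (e2 ▸ R.mul_mem hR hR))
  have eb : b = ι a * n := by rw [← e]; group
  have z := h.inj _ ((ha.add (ha.act _)).add hu) (by rw [← sq_eq h ha hu e2, ← eb, hb2])
  have z' := congrArg pU z
  rw [pU_add, pU_add, hn, hg, hU] at z'
  have z0 : pU 0 = 0 := by ext i j; simp [pU]
  refine ⟨ι (pU a) * n, R.mul_mem ((l.rA _ (pU_alt ha)).2 ((mem_U0 _).2 (pU_pU a))) hR, ?_, ?_⟩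
  · rw [map_mul, pi_iota h (pU_alt ha), one_mul, hn]
  · rw [sq_eq h (pU_alt ha) hu e2, hn, z', z0, iota_zero h]

theorem comm (h : Ex ι π) {a n : N} {c u : M5} (hc : Alt c) (hu : Alt u)
    (e : n * a * n⁻¹ * a⁻¹ = ι c) (m : u + c = (π a).1 * u * (π a).1ᵀ) :
    a * (ι u * n) = ι u * n * a := by
  have e1 : a * ι u * a⁻¹ = ι u * ι c := by rw [h.act a u hu, ← m, h.add _ _ hu hc]
  calc a * (ι u * n) = a * ι u * a⁻¹ * (a * n) := by group
    _ = ι u * n * a := by rw [e1, ← e]; group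

theorem lev : LevStmt.{u} := by
  intro N _ _ ι π δ Fs R h hI l
  have I12 := hI 1 (by simp) 2 (by simp) (by decide)
  have I23 := hI 2 (by simp) 3 (by simp) (by decide)
  have I45 := hI 4 (by simp) 5 (by simp) (by decide)
  obtain ⟨a₁, r1, p1, s1⟩ := lift h l p12 (l.rsurj _ (Or.inl (by unfold La; decide))) I12.1
  obtain ⟨a₂, r2, p2, s2⟩ := lift h l p23 (l.rsurj _ (Or.inl (by unfold La; decide))) I23.1
  obtain ⟨n, r4, p4, s4⟩ := lift h l p45 (l.rsurj _ (Or.inr rfl)) I45.1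
  obtain ⟨c1, hc1, z1, e1⟩ := (I12.2 a₁ n p1 s1 (by rw [p4]; decide)).2
    (by rw [p4]; exact Subtype.ext (by decide))
  obtain ⟨c2, hc2, z2, e2⟩ := (I23.2 a₂ n p2 s2 (by rw [p4]; decide)).2
    (by rw [p4]; exact Subtype.ext (by decide))
  have u1 := (mem_U0 hc1).1 ((l.rA _ hc1).1
    (e1 ▸ R.mul_mem (R.mul_mem (R.mul_mem r4 r1) (R.inv_mem r4)) (R.inv_mem r1)))
  have u2 := (mem_U0 hc2).1 ((l.rA _ hc2).1
    (e2 ▸ R.mul_mem (R.mul_mem (R.mul_mem r4 r2) (R.inv_mem r4)) (R.inv_mem r2)))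
  obtain ⟨hu, hp, m1, m2, m4⟩ := fin_u (c1 0 2) (c2 0 1)
  rw [← shape1 hc1 u1 z1, ← p1] at m1
  rw [← shape2 hc2 u2 z2, ← p2] at m2
  have q := (I23.2 a₂ a₁ p2 s2 (by rw [p1]; decide)).1
  rw [inv_eq_of_mul_eq_one_right s1] at q
  refine ⟨a₁, r1, a₂, r2, ι _ * n, R.mul_mem ((l.rA _ hu).2 ((mem_U0 _).2 hp)) r4, p1, p2, ?_, s1, s2,
    ?_, ?_, comm h hc1 hu e1 m1, comm h hc2 hu e2 m2⟩
  · rw [map_mul, pi_iota h hu, one_mul, p4]
  · rw [sq_eq h hu Alt.zero (s4.trans (iota_zero h).symm), p4, m4, add_self_M, add_zero, iota_zero h]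
  · rw [← q]; simp only [pow_succ, pow_zero, one_mul, mul_assoc]

end Cfsg.Agent.H6.LpLev
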