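import Cfsg.Agent.H6.TBDefs
import Cfsg.Agent.H56.ONanPSL

/-!
Project TB: the assembly.
-/

set_option autoImplicit false

namespace Cfsg.Agent.H6.TB

open Cfsg Subgroup
open Cfsg.Agent.H83 (cj)
open scoped Cfsg.Agent.H63

universe u

structure All : Prop where
  la : LAStmt.{u}
  le : LEStmt.{u}
  lb : LBStmt.{u}
  lq : LQStmt.{u}
  lx : LXStmt.{u}
  gb : GBStmt.{u}
  ca : CAStmt.{u}
  cb : CBStmt.{u}
  cc : CCStmt.{u}
  y : YStmt.{u}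
  n : NStmt.{u}
  xa : XAStmt.{u}
  xl : XLStmt.{u}
  xb : XBStmt.{u}
  xd : XDStmt.{u}
  so : SOStmt.{u}
  id : IDStmt.{u}

theorem main_of (a : All.{u}) : MainStmt.{u} := by
  intro G _ _ Ω gm
  have t := gm.toTB
  have la := a.la Ω t
  have le := a.le Ω t la
  have lb := a.lb Ω t la le
  have c0 : C0 Ω := ⟨t, la, le, lb, a.lx Ω t la le lb (a.lq Ω t la le lb)⟩
  have c1 : C1 Ω := ⟨c0, gm, a.gb Ω gm la⟩
  have ca : CA Ω := a.ca Ω c1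
  have cc := a.cc Ω c1 ca (a.cb Ω c0 ca)
  have nc : ∀ P Q, Ad Ω P Q → Nc Ω P Q := fun P Q e => e.cm_or.resolve_left (cc P Q)
  obtain ⟨B, B', B'', x⟩ : ∃ R P Q, XC Ω R P Q := by
    by_contra h
    push Not at h
    obtain ⟨P, Q, e⟩ := a.n Ω c1
    exact a.y Ω c1 nc h P Q e
  have c4 : ∀ P ∈ Ω, Nat.card (om P) = 4 ∧ qq P = 4 := fun P hP =>
    ⟨(t.card hP x.n1.l).1.trans x.c4.1, (t.card hP x.n1.l).2.trans x.c4.2⟩
  have cx : CX Ω := ⟨c0, nc, c4⟩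
  have xa := a.xa Ω cx
  obtain ⟨S, T, V, V', A, M, Q, f⟩ :=
    a.xd Ω cx gm c1.gb xa (a.xb Ω cx c1.gb xa (a.xl Ω cx xa)) B B' B'' x
  obtain ⟨hs, hc⟩ := a.so S T V V' A M Q f
  refine ⟨fun P hP => ⟨(c4 P hP).1, (c4 P hP).2, ?_⟩, ?_⟩
  · obtain ⟨g, rfl⟩ := t.trans B x.n1.l P hP
    exact le.sq (x.n1.cj t g)
  · rw [H56.fstar_eq_of_simple normalClosure_normal hc]
    exact a.id S T V V' A M Q f hs

end Cfsg.Agent.H6.TB
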