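import Mathlib
import Cfsg.Agent.H83.Base
import Cfsg.Agent.H63.Defs
import Cfsg.Prelude.Def_Transfer
import Cfsg.Prelude.Def_TwoFusion
import Cfsg.Prelude.Def_PLocal
import Cfsg.Prelude.Def_CaseTheorems
import Cfsg.Prelude.Def_Local

/-!
# Abelian TI `2`-subgroups that are not elementary (project TB): definitions and interfaces

`Ω` is a conjugacy class of abelian `2`-subgroups ("points"), neither cyclic nor elementary.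
The interfaces are the propositions `...Stmt`; the proofs are in `stubs/Cfsg/Agent/H6/TB.md`.
-/

set_option autoImplicit false
set_option linter.dupNamespace false

namespace Cfsg.Agent.H6.TB

open Cfsg Subgroup
open Cfsg.Agent.H83 (cj)
open scoped Cfsg.Agent.H63 commutatorElement

universe u

section Defs

variable {G : Type u} [Group G]

/-- `Ω₁(P)`. -/
def om (P : Subgroup G) : Subgroup G := omegaOne 2 P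

/-- `Ω₁(P) Ω₁(Q)`. -/
def vv (P Q : Subgroup G) : Subgroup G := om P ⊔ om Q

/-- `q = |P : Ω₁(P)|`. -/
noncomputable def qq (P : Subgroup G) : ℕ := (om P).relIndex P

/-- `a` inverts `x`. -/
def Iv (a x : G) : Prop := a * x * a⁻¹ = x⁻¹

/-- `g` acts without fixed points on `V`. -/
def Fpf (g : G) (V : Subgroup G) : Prop := ∀ v ∈ V, g * v = v * g → v = 1

/-- `R` is a point of the line through `P` and `Q`. -/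
def OnL (P Q R : Subgroup G) : Prop := ∃ g ∈ P ⊔ Q, R = cj g P

/-- `O₂(N(P))`. -/
def oo (P : Subgroup G) : Subgroup G := (pCore 2 ↥N[P]).map N[P].subtype

/-- The class of points. -/
structure TB (Ω : Set (Subgroup G)) : Prop where
  comm : ∀ P ∈ Ω, ∀ a ∈ P, ∀ b ∈ P, a * b = b * a
  two : ∀ P ∈ Ω, IsPGroup 2 P
  conj : ∀ P ∈ Ω, ∀ g : G, cj g P ∈ Ω
  trans : ∀ P ∈ Ω, ∀ Q ∈ Ω, ∃ g : G, cj g P = Q
  ti : ∀ P ∈ Ω, ∀ Q ∈ Ω, P ≠ Q → P ⊓ Q = ⊥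
  nel : ∀ P ∈ Ω, ∃ x ∈ P, x * x ≠ 1
  four : ∀ P ∈ Ω, 4 ≤ Nat.card (om P)

variable (Ω : Set (Subgroup G))

/-- An edge. -/
structure Ad (P Q : Subgroup G) : Prop where
  l : P ∈ Ω
  r : Q ∈ Ω
  ne : P ≠ Q
  nb : P ⊓ N[Q] ≠ ⊥

/-- A commuting edge. -/
structure Cm (P Q : Subgroup G) : Prop where
  l : P ∈ Ω
  r : Q ∈ Ω
  ne : P ≠ Q
  comm : ∀ x ∈ P, ∀ y ∈ Q, x * y = y * x

/-- An edge that does not commute. -/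
structure Nc (P Q : Subgroup G) : Prop extends Ad Ω P Q where
  nc : ∃ x ∈ P, ∃ y ∈ Q, x * y ≠ y * x

/-- The exceptional configuration. -/
structure XC (R P Q : Subgroup G) : Prop where
  n1 : Nc Ω R P
  n2 : Nc Ω R Q
  ne : P ≠ Q
  na : ¬ Ad Ω P Q
  br : ∀ a ∈ om P, ∀ b ∈ om Q, ⁅a, b⁆ ∈ om R
  sur : ∀ r ∈ om R, ∃ a ∈ om P, ∃ b ∈ om Q, r = ⁅a, b⁆
  s1 : ∀ a ∈ om P, a ≠ 1 → ∃ s ∈ R, s ∉ om R ∧ a * s ∈ C[om Q] ∧ Iv a s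
  s2 : ∀ b ∈ om Q, b ≠ 1 → ∃ s ∈ R, s ∉ om R ∧ b * s ∈ C[om P] ∧ Iv b s
  c4 : Nat.card (om R) = 4 ∧ qq R = 4

end Defs

section API

variable {G : Type u} [Group G] {Ω : Set (Subgroup G)} {P Q R : Subgroup G} {g x : G}

theorem om_le (P : Subgroup G) : om P ≤ P := (closure_le _).2 fun _ h => h.1

theorem om_cj_le (g : G) (P : Subgroup G) : cj g (om P) ≤ om (cj g P) := by
  rw [om, omegaOne, cj, MonoidHom.map_closure]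
  refine closure_mono ?_
  rintro _ ⟨x, ⟨h1, h2⟩, rfl⟩
  exact ⟨mem_map_of_mem _ h1, by rw [← map_pow, h2, map_one]⟩

theorem om_cj (g : G) (P : Subgroup G) : om (cj g P) = cj g (om P) := by
  refine le_antisymm ?_ (om_cj_le g P)
  have h := om_cj_le g⁻¹ (cj g P)
  rw [H83.cj_inv_cj] at h
  have h2 := H83.cj_mono g h
  rwa [H83.cj_cj_inv] at h2

theorem vv_comm (P Q : Subgroup G) : vv P Q = vv Q P := sup_comm _ _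

theorem vv_cj (g : G) (P Q : Subgroup G) : vv (cj g P) (cj g Q) = cj g (vv P Q) := by
  rw [vv, vv, om_cj, om_cj, H83.cj_sup]

theorem qq_cj (g : G) (P : Subgroup G) : qq (cj g P) = qq P := by
  rw [qq, qq, om_cj]
  exact relIndex_map_map_of_injective _ _ (MulAut.conj g).injective

theorem TB.card (h : TB Ω) (hP : P ∈ Ω) (hQ : Q ∈ Ω) :
    Nat.card (om P) = Nat.card (om Q) ∧ qq P = qq Q := by
  obtain ⟨g, rfl⟩ := h.trans P hP Q hQ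
  rw [om_cj, H83.card_cj, qq_cj]; exact ⟨rfl, rfl⟩

theorem norm_om (hg : g ∈ N[P]) : g ∈ N[om P] := by
  have := om_cj g P
  rw [H83.cj_eq_self hg] at this
  exact H83.cj_eq_self_iff.1 this.symm

theorem ad_of (hP : P ∈ Ω) (hQ : Q ∈ Ω) (hx : x ∈ P) (h1 : x ≠ 1) (hN : x ∈ N[Q]) :
    P = Q ∨ Ad Ω P Q :=
  (eq_or_ne P Q).imp_right fun e => ⟨hP, hQ, e, fun a => h1 (mem_bot.1 (a.le ⟨hx, hN⟩))⟩

theorem Ad.cm_or (e : Ad Ω P Q) : Cm Ω P Q ∨ Nc Ω P Q := by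
  by_cases h : ∀ x ∈ P, ∀ y ∈ Q, x * y = y * x
  · exact Or.inl ⟨e.l, e.r, e.ne, h⟩
  · push Not at h; exact Or.inr ⟨e, h⟩

theorem Cm.symm (e : Cm Ω P Q) : Cm Ω Q P :=
  ⟨e.r, e.l, e.ne.symm, fun x hx y hy => (e.comm y hy x hx).symm⟩

theorem Cm.not_nc (e : Cm Ω P Q) (f : Nc Ω P Q) : False := by
  obtain ⟨x, hx, y, hy, h⟩ := f.nc; exact h (e.comm x hx y hy)

theorem Cm.ad (h : TB Ω) (e : Cm Ω P Q) : Ad Ω P Q := by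
  obtain ⟨x, hx, h1⟩ := h.nel P e.l
  refine (ad_of e.l e.r hx (fun a => h1 (by rw [a, mul_one])) ?_).resolve_left e.ne
  exact centralizer_le_normalizer _ fun y hy => (e.comm x hx y hy).symm

theorem Ad.cj (h : TB Ω) (e : Ad Ω P Q) (g : G) : Ad Ω (cj g P) (cj g Q) :=
  ⟨h.conj _ e.l g, h.conj _ e.r g, fun a => e.ne (H83.cj_inj.1 a), fun a => e.nb
    (H83.cj_eq_bot_iff.1 (by rwa [H83.cj_inf, H83.cj_normalizer]))⟩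

theorem Cm.cj (h : TB Ω) (e : Cm Ω P Q) (g : G) : Cm Ω (cj g P) (cj g Q) :=
  ⟨h.conj _ e.l g, h.conj _ e.r g, fun a => e.ne (H83.cj_inj.1 a), by
    rintro _ ⟨x, hx, rfl⟩ _ ⟨y, hy, rfl⟩
    rw [← map_mul, ← map_mul, e.comm x hx y hy]⟩

theorem Nc.cj (h : TB Ω) (e : Nc Ω P Q) (g : G) : Nc Ω (cj g P) (cj g Q) := by
  refine ⟨e.toAd.cj h g, ?_⟩
  obtain ⟨x, hx, y, hy, a⟩ := e.nc
  refine ⟨_, mem_map_of_mem _ hx, _, mem_map_of_mem _ hy, fun b => a ?_⟩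
  rw [← map_mul, ← map_mul] at b
  exact (MulAut.conj g).injective b

theorem Ad.cjN (h : TB Ω) (e : Ad Ω P Q) (hg : g ∈ N[P]) : Ad Ω P (H83.cj g Q) := by
  have := e.cj h g
  rwa [H83.cj_eq_self hg] at this

theorem Cm.cjN (h : TB Ω) (e : Cm Ω P Q) (hg : g ∈ N[P]) : Cm Ω P (H83.cj g Q) := by
  have := e.cj h g
  rwa [H83.cj_eq_self hg] at this

theorem Nc.cjN (h : TB Ω) (e : Nc Ω P Q) (hg : g ∈ N[P]) : Nc Ω P (H83.cj g Q) := by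
  have := e.cj h g
  rwa [H83.cj_eq_self hg] at this

theorem Iv.cj {a : G} (h : Iv a x) (g : G) : Iv (g * a * g⁻¹) (g * x * g⁻¹) := by
  rw [Iv] at h ⊢
  calc _ = g * (a * x * a⁻¹) * g⁻¹ := by group
    _ = _ := by rw [h]; group

theorem XC.cj (h : TB Ω) (e : XC Ω R P Q) (g : G) : XC Ω (cj g R) (cj g P) (cj g Q) := by
  have key : ∀ {P Q : Subgroup G}, (∀ a ∈ om P, a ≠ 1 → ∃ s ∈ R, s ∉ om R ∧ a * s ∈ C[om Q] ∧ Iv a s) →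
      ∀ a ∈ om (H83.cj g P), a ≠ 1 → ∃ s ∈ H83.cj g R, s ∉ om (H83.cj g R) ∧
        a * s ∈ C[om (H83.cj g Q)] ∧ Iv a s := by
    intro P Q k a ha a1
    rw [om_cj] at ha
    obtain ⟨b, hb, rfl⟩ := ha
    obtain ⟨s, h1, h2, h3, h4⟩ := k b hb (fun e => a1 (by rw [e, map_one]))
    refine ⟨_, mem_map_of_mem _ h1, fun a => h2 ?_, ?_, h4.cj g⟩
    · rw [om_cj] at a
      exact (mem_map_iff_mem (MulAut.conj g).injective).1 a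
    · rw [om_cj]
      rintro _ ⟨c, hc, rfl⟩
      rw [← map_mul, ← map_mul, ← map_mul, h3 c hc]
  refine ⟨e.n1.cj h g, e.n2.cj h g, fun a => e.ne (H83.cj_inj.1 a), fun a => e.na ?_, ?_, ?_,
    key e.s1, key e.s2, by rw [om_cj, H83.card_cj, qq_cj]; exact e.c4⟩
  · have := a.cj h g⁻¹
    rwa [H83.cj_inv_cj, H83.cj_inv_cj] at this
  · rw [om_cj, om_cj, om_cj]
    rintro _ ⟨a, ha, rfl⟩ _ ⟨b, hb, rfl⟩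
    rw [← map_commutatorElement]
    exact mem_map_of_mem _ (e.br a ha b hb)
  · rw [om_cj, om_cj, om_cj]
    rintro _ ⟨r, hr, rfl⟩
    obtain ⟨a, ha, b, hb, rfl⟩ := e.sur r hr
    exact ⟨_, mem_map_of_mem _ ha, _, mem_map_of_mem _ hb, map_commutatorElement _ _ _⟩

theorem XC.symm (e : XC Ω R P Q) (hs : ∀ {P Q}, Ad Ω P Q → Ad Ω Q P) : XC Ω R Q P :=
  ⟨e.n2, e.n1, e.ne.symm, fun a => e.na (hs a), fun a ha b hb => by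
    rw [← commutatorElement_inv]; exact inv_mem (e.br b hb a ha), fun r hr => by
    obtain ⟨a, ha, b, hb, h⟩ := e.sur r⁻¹ (inv_mem hr)
    exact ⟨b, hb, a, ha, by rw [← commutatorElement_inv, ← h, inv_inv]⟩, e.s2, e.s1, e.c4⟩

theorem onL_left (P Q : Subgroup G) : OnL P Q P := ⟨1, one_mem _, (H83.cj_one P).symm⟩

theorem OnL.mem (h : TB Ω) (hP : P ∈ Ω) (o : OnL P Q R) : R ∈ Ω := by
  obtain ⟨g, -, rfl⟩ := o; exact h.conj _ hP g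

theorem OnL.le (o : OnL P Q R) : R ≤ P ⊔ Q := by
  obtain ⟨g, hg, rfl⟩ := o; exact H83.cj_le_of_mem le_sup_left hg

end API

section Ctx

variable {G : Type u} [Group G] (Ω : Set (Subgroup G))

/-- Points. -/
structure LA : Prop where
  mem_om : ∀ P ∈ Ω, ∀ a, a ∈ om P ↔ a ∈ P ∧ a * a = 1
  eq : ∀ P ∈ Ω, ∀ Q ∈ Ω, ∀ a ∈ P, a ∈ Q → a ≠ 1 → P = Q
  cent : ∀ P ∈ Ω, ∀ a ∈ P, a ≠ 1 → ∀ g : G, g * a = a * g → g ∈ N[P]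
  norm : ∀ P ∈ Ω, ∀ a ∈ P, a ≠ 1 → ∀ g : G, g * a * g⁻¹ ∈ P → g ∈ N[P]
  com : ∀ P ∈ Ω, C[om P] ≤ N[P]
  nom : ∀ P ∈ Ω, N[om P] ≤ N[P]
  /-- the number of squares -/
  sqc : ∀ P ∈ Ω, {y | ∃ x ∈ P, y = x * x}.ncard = qq P
  symm : ∀ {P Q}, Ad Ω P Q → Ad Ω Q P
  nsymm : ∀ {P Q}, Nc Ω P Q → Nc Ω Q P
  /-- points inside a `2`-group commute -/
  two : ∀ P ∈ Ω, ∀ Q ∈ Ω, ∀ T : Subgroup G, IsPGroup 2 T → P ≤ T → Q ≤ T →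
    ∀ x ∈ P, ∀ y ∈ Q, x * y = y * x
  /-- the four-group lemma -/
  fg : ∀ Q ∈ Ω, ∀ X F : Subgroup G, IsPGroup 2 X → (∀ x ∈ X, ∀ y ∈ X, x * y = y * x) →
    X ⊓ Q = ⊥ → F ≤ Q → F ≤ N[X] → 4 ≤ Nat.card F → ∀ y ∈ X, ∀ g ∈ F, y * y * g = g * (y * y)

/-- Edges. -/
structure LE : Prop where
  adc : ∀ {P Q}, Ad Ω P Q → ∀ a ∈ om P, ∀ b ∈ om Q, a * b = b * a
  ax : ∀ {P Q}, Nc Ω P Q → P ⊓ N[Q] = om P
  sq : ∀ {P Q}, Nc Ω P Q → ∀ x ∈ P, x * x ∈ om P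
  qh : ∀ {P Q}, Nc Ω P Q → qq P ≤ Nat.card (om P)
  vmem : ∀ {P Q}, Ad Ω P Q → ∀ v, v ∈ vv P Q ↔ ∃ i ∈ om P, ∃ j ∈ om Q, v = i * j
  vsq : ∀ {P Q}, Ad Ω P Q → ∀ v ∈ vv P Q, v * v = 1
  vcomm : ∀ {P Q}, Ad Ω P Q → ∀ v ∈ vv P Q, ∀ w ∈ vv P Q, v * w = w * v
  vcard : ∀ {P Q}, Ad Ω P Q → Nat.card (vv P Q) = Nat.card (om P) * Nat.card (om P)
  vinf : ∀ {P Q}, Ad Ω P Q → vv P Q ⊓ P = om P
  vle : ∀ {P Q}, Ad Ω P Q → vv P Q ≤ N[P]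
  vnorm : ∀ {P Q}, Ad Ω P Q → P ⊔ Q ≤ N[vv P Q]
  brk : ∀ {P Q}, Ad Ω P Q → ∀ x ∈ P, ∀ v ∈ vv P Q, ⁅x, v⁆ ∈ om P
  mul1 : ∀ {P Q}, Ad Ω P Q → ∀ x ∈ P, ∀ v ∈ vv P Q, ∀ w ∈ vv P Q, ⁅x, v * w⁆ = ⁅x, v⁆ * ⁅x, w⁆
  mul2 : ∀ {P Q}, Ad Ω P Q → ∀ x ∈ P, ∀ y ∈ P, ∀ v ∈ vv P Q, ⁅x * y, v⁆ = ⁅x, v⁆ * ⁅y, v⁆
  cA : ∀ {P Q}, Nc Ω P Q → ∀ x ∈ P, ∀ v ∈ vv P Q, v ∉ om P → x * v = v * x → x ∈ om P
  phi : ∀ {P Q}, Nc Ω P Q → ∀ x ∈ P, x ∉ om P → ∀ i ∈ om P, ∃! j, j ∈ om Q ∧ ⁅x, j⁆ = i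
  ivE : ∀ {P Q}, Nc Ω P Q → ∀ x ∈ P, x ∉ om P → ∃! j, j ∈ om Q ∧ Iv j x
  odd : ∀ {P Q}, Nc Ω P Q → ∀ x ∈ P, x ∉ om P → ∀ y ∈ Q, y ∉ om Q →
    (∃ k, Odd k ∧ (x * y) ^ k ∈ vv P Q) ∧ Fpf (x * y) (vv P Q)
  swap : ∀ {P Q}, Nc Ω P Q → ∀ x ∈ P, x ∉ om P → ∀ y ∈ Q, y ∉ om Q →
    ∃ s R, OnL P Q R ∧ s ∈ R ∧ s ∉ om R ∧ s ∈ closure ({x, y} : Set G) ∧ cj s P = Q ∧
      cj s Q = P ∧ s * x * s⁻¹ * y⁻¹ ∈ vv P Q ∧ s * y * s⁻¹ * x⁻¹ ∈ vv P Q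

/-- Lines. -/
structure LB : Prop where
  omle : ∀ {P Q R}, Nc Ω P Q → OnL P Q R → om R ≤ vv P Q
  lin : ∀ {P Q R R'}, Nc Ω P Q → OnL P Q R → OnL P Q R' → R ≠ R' →
    Nc Ω R R' ∧ vv R R' = vv P Q
  /-- the swap trick -/
  sw2 : ∀ P ∈ Ω, ∀ g : G, g * g = 1 → Nc Ω P (cj g P) → ∃ R s, Nc Ω R P ∧
    om R ≤ vv P (cj g P) ∧ s ∈ R ∧ s ∉ om R ∧ g ∈ N[R] ∧
      (g ∈ C[om R] → ∀ a ∈ om P, g * a * g⁻¹ = s * a * s⁻¹)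
  /-- the T-lemma -/
  tl : ∀ {P Q}, Nc Ω P Q → ∀ t ∈ C[P], t ∈ N[Q] → t ∈ C[vv P Q] ∧ ∃ i ∈ om P, t * i ∈ C[Q]
  der : ∀ {P Q}, Nc Ω P Q → ∀ c ∈ N[Q], c ∈ C[vv P Q] → c * c ∈ C[Q]
  tor : ∀ {P Q}, Nc Ω P Q → 4 ≤ qq P → ∃ τ ∈ P ⊔ Q, τ ∈ N[P] ∧ τ ∈ N[Q] ∧ Odd (orderOf τ) ∧
    Fpf τ (vv P Q)
  part : ∀ {P Q}, Nc Ω P Q → qq P = Nat.card (om P) → ∀ v ∈ vv P Q, v ∉ om P →
    ∃ x ∈ P, v ∈ cj x (om Q)

/-- If inversion is additive then `q ≤ 4`. -/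
def LQ : Prop :=
  ∀ {P Q}, Nc Ω P Q → qq P = Nat.card (om P) →
    (∀ x ∈ P, x ∉ om P → ∀ y ∈ P, y ∉ om P → ∀ a ∈ om Q, ∀ b ∈ om Q, Iv a x → Iv b y →
      Iv (a * b) (x * y)) → Nat.card (om P) ≤ 4

/-- Lemma X. -/
def LX : Prop :=
  ∀ P ∈ Ω, ∀ Q ∈ Ω, P ≠ Q → ¬ Ad Ω P Q →
    (∀ g ∈ om Q, ∀ a ∈ om P, ∀ b ∈ om P, a * (g * b * g⁻¹) = g * b * g⁻¹ * a) → ∃ R, XC Ω R P Q

/-- The local context. -/
structure C0 : Prop extends TB Ω where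
  la : LA Ω
  le : LE Ω
  lb : LB Ω
  lx : LX Ω

/-- The hypothesis of the main theorem. -/
structure GM : Prop extends TB Ω where
  ne : Ω.Nonempty
  o2 : pCore 2 G = ⊥
  max : ∀ P ∈ Ω, ∀ T : Subgroup G, IsPGroup 2 T → T ≠ ⊥ → N[P] ≤ N[T] → N[T] ≤ N[P]
  ch : ∀ P ∈ Ω, IsOfCharacteristicTwo ↥N[P]

/-- Facts on `O₂(N(P))`. -/
structure GB : Prop where
  two : ∀ P ∈ Ω, IsPGroup 2 (oo P)
  le : ∀ P ∈ Ω, oo P ≤ N[P]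
  nrm : ∀ P ∈ Ω, N[P] ≤ N[oo P]
  pt : ∀ P ∈ Ω, P ≤ oo P
  cent : ∀ P ∈ Ω, ∀ g ∈ N[P], g ∈ C[oo P] → g ∈ oo P
  odd : pPrimeCore 2 G = ⊥
  /-- `oo B ⊔ X` is a `2`-group -/
  sup : ∀ B ∈ Ω, ∀ X : Subgroup G, IsPGroup 2 X → X ≤ N[B] → IsPGroup 2 ↥(oo B ⊔ X)
  sq : ∀ B ∈ Ω, ∀ P ∈ Ω, P ≤ N[B] → ∀ x ∈ P, x * x ∈ oo B
  /-- Baer-Suzuki -/
  bs : ∀ B ∈ Ω, ∀ a ∈ C[om B], a * a = 1 → (∀ x ∈ B, ⁅x, a⁆ ∈ om B) →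
    (∀ m ∈ N[B], ∀ ρ, ρ = a * (m * a * m⁻¹) → Odd (orderOf ρ) → ρ ∈ C[B] →
      ∀ y ∈ oo B, y ∈ C[B] → ρ * y = y * ρ) → a ∈ oo B

/-- The global context. -/
structure C1 : Prop extends C0 Ω where
  gm : GM Ω
  gb : GB Ω

/-- Commuting neighbours are adjacent. -/
def CA : Prop := ∀ {B P P'}, Cm Ω B P → Cm Ω B P' → P ≠ P' → Ad Ω P P'

def CB : Prop := ∀ {B P B'}, Cm Ω B P → Nc Ω B B' → Ad Ω P B'

/-- The exceptional case. -/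
structure CX : Prop extends C0 Ω where
  nc : ∀ P Q, Ad Ω P Q → Nc Ω P Q
  c4 : ∀ P ∈ Ω, Nat.card (om P) = 4 ∧ qq P = 4

structure XA : Prop where
  /-- no triangles -/
  tri : ∀ {B B' P}, Nc Ω B B' → Ad Ω P B → Ad Ω P B' → ∃ x ∈ B, P = cj x B'
  iv : ∀ {B B'}, Nc Ω B B' → ∀ a ∈ om B', a ≠ 1 → ∃ x ∈ B, x ∉ om B ∧ Iv a x
  one : ∀ {B B'}, Nc Ω B B' → ∀ a ∈ om B', ∀ x ∈ B, x ∉ om B → ∀ y ∈ B, y ∉ om B → Iv a x →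
    Iv a y → x * y ∈ om B
  same : ∀ {B B₁ B₂}, Nc Ω B B₁ → Nc Ω B B₂ → ∀ a₁ ∈ om B₁, ∀ a₂ ∈ om B₂, ∀ x ∈ B, x ∉ om B →
    Iv a₁ x → Iv a₂ x → a₁ * a₂ ∈ C[B]
  smem : ∀ {B B'}, Nc Ω B B' → ∀ y, y ∈ B ⊔ om B' ↔ ∃ x ∈ B, ∃ a ∈ om B', y = x * a
  sC : ∀ {B B'}, Nc Ω B B' → (B ⊔ om B') ⊓ C[B] = B
  fus : ∀ {B B'}, Nc Ω B B' → ∀ a ∈ om B, a ≠ 1 → ∀ v ∈ vv B B', v ≠ 1 →
    ∃ h ∈ B ⊔ B', h * a * h⁻¹ = v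

def XL : Prop := ∀ {B B' B''}, XC Ω B B' B'' → om B'' ≤ B ⊔ om B'

def XB : Prop := ∀ {B B₁ B₂}, Ad Ω B B₁ → Ad Ω B B₂ → om B₂ ≤ B ⊔ om B₁

end Ctx

/-- The data for the identification. -/
structure Fin4 {G : Type u} [Group G] (S : Sylow 2 G) (T V V' A M Q : Subgroup G) : Prop where
  o2 : pCore 2 G = ⊥
  odd : pPrimeCore 2 G = ⊥
  sc : IsStronglyClosed T (S : Subgroup G)
  leV : V ≤ T
  leV' : V' ≤ T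
  dec : ∀ t ∈ T, ∃ v ∈ V, ∃ w ∈ V', t = v * w
  inf : A = V ⊓ V'
  sqV : ∀ v ∈ V, v * v = 1
  sqV' : ∀ v ∈ V', v * v = 1
  br : ∀ v ∈ V, ∀ w ∈ V', ⁅v, w⁆ ∈ A
  fix : ∀ v ∈ V, ∀ w ∈ V', v * w = w * v → v ∈ A ∨ w ∈ A
  cA : Nat.card A = 4
  cV : A.relIndex V = 4
  cV' : A.relIndex V' = 4
  le : T ≤ normalClosure (A : Set G)
  fus : ∀ a ∈ A, a ≠ 1 → ∀ v, v ∈ V ∨ v ∈ V' → v ≠ 1 →
    ∃ h ∈ normalClosure (A : Set G), h * a * h⁻¹ = v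
  nV : ∃ h ∈ normalClosure (A : Set G), h ∈ N[V] ∧ h ∉ N[A]
  nV' : ∃ h ∈ normalClosure (A : Set G), h ∈ N[V'] ∧ h ∉ N[A]
  cM : C[A] ≤ M
  two : IsPGroup 2 Q
  nQ : M ≤ N[Q]
  ch : ∀ y ∈ M, y ∈ C[Q] → y ∈ Q

def L34 (G : Type u) [Group G] : Prop :=
  ∃ (F : Type) (_ : Field F) (_ : Fintype F), Fintype.card F = 4 ∧
    Nonempty (G ≃* Matrix.ProjectiveSpecialLinearGroup (Fin 3) F)

/-! ### The interfaces -/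

def MainStmt : Prop := ∀ {G : Type u} [Group G] [Finite G] (Ω : Set (Subgroup G)), GM Ω →
  (∀ P ∈ Ω, Nat.card (om P) = 4 ∧ qq P = 4 ∧ ∀ x ∈ P, x * x ∈ om P) ∧
    L34 ↥(generalizedFittingSubgroup G)

def LAStmt : Prop := ∀ {G : Type u} [Group G] [Finite G] (Ω : Set (Subgroup G)), TB Ω → LA Ω

def LEStmt : Prop :=
  ∀ {G : Type u} [Group G] [Finite G] (Ω : Set (Subgroup G)), TB Ω → LA Ω → LE Ω

def LBStmt : Prop :=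
  ∀ {G : Type u} [Group G] [Finite G] (Ω : Set (Subgroup G)), TB Ω → LA Ω → LE Ω → LB Ω

def LQStmt : Prop :=
  ∀ {G : Type u} [Group G] [Finite G] (Ω : Set (Subgroup G)), TB Ω → LA Ω → LE Ω → LB Ω → LQ Ω

def LXStmt : Prop :=
  ∀ {G : Type u} [Group G] [Finite G] (Ω : Set (Subgroup G)), TB Ω → LA Ω → LE Ω → LB Ω → LQ Ω →
    LX Ω

def GBStmt : Prop :=
  ∀ {G : Type u} [Group G] [Finite G] (Ω : Set (Subgroup G)), GM Ω → LA Ω → GB Ω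

def CAStmt : Prop := ∀ {G : Type u} [Group G] [Finite G] (Ω : Set (Subgroup G)), C1 Ω → CA Ω

def CBStmt : Prop := ∀ {G : Type u} [Group G] [Finite G] (Ω : Set (Subgroup G)), C0 Ω → CA Ω → CB Ω

def CCStmt : Prop :=
  ∀ {G : Type u} [Group G] [Finite G] (Ω : Set (Subgroup G)), C1 Ω → CA Ω → CB Ω →
    ∀ P Q, ¬ Cm Ω P Q

def YStmt : Prop :=
  ∀ {G : Type u} [Group G] [Finite G] (Ω : Set (Subgroup G)), C1 Ω →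
    (∀ P Q, Ad Ω P Q → Nc Ω P Q) → (∀ R P Q, ¬ XC Ω R P Q) → ∀ P Q, ¬ Ad Ω P Q

def NStmt : Prop :=
  ∀ {G : Type u} [Group G] [Finite G] (Ω : Set (Subgroup G)), C1 Ω → ∃ P Q, Ad Ω P Q

def XAStmt : Prop := ∀ {G : Type u} [Group G] [Finite G] (Ω : Set (Subgroup G)), CX Ω → XA Ω

def XLStmt : Prop :=
  ∀ {G : Type u} [Group G] [Finite G] (Ω : Set (Subgroup G)), CX Ω → XA Ω → XL Ω

def XBStmt : Prop :=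
  ∀ {G : Type u} [Group G] [Finite G] (Ω : Set (Subgroup G)), CX Ω → GB Ω → XA Ω → XL Ω → XB Ω

def XDStmt : Prop :=
  ∀ {G : Type u} [Group G] [Finite G] (Ω : Set (Subgroup G)), CX Ω → GM Ω → GB Ω → XA Ω → XB Ω →
    ∀ B B' B'', XC Ω B B' B'' → ∃ (S : Sylow 2 G) (T V V' A M Q : Subgroup G), Fin4 S T V V' A M Q

def SOStmt : Prop :=
  ∀ {G : Type u} [Group G] [Finite G] (S : Sylow 2 G) (T V V' A M Q : Subgroup G),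
    Fin4 S T V V' A M Q → IsSimpleGroup ↥(normalClosure (A : Set G)) ∧
      C[normalClosure (A : Set G)] = ⊥

def IDStmt : Prop :=
  ∀ {G : Type u} [Group G] [Finite G] (S : Sylow 2 G) (T V V' A M Q : Subgroup G),
    Fin4 S T V V' A M Q → IsSimpleGroup ↥(normalClosure (A : Set G)) →
      L34 ↥(normalClosure (A : Set G))

end Cfsg.Agent.H6.TB
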