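import Cfsg.Agent.H6.TBDefs
import Cfsg.Agent.H83.Misc
import Cfsg.Agent.H3.TIAb
import Cfsg.Agent.H81.TI

/-! Project TB: points. -/

set_option autoImplicit false

namespace Cfsg.Agent.H6.TB.La

open Cfsg Subgroup
open Cfsg.Agent.H83 (cj)
open scoped Cfsg.Agent.H63 commutatorElement

universe u

variable {G : Type u} [Group G] {Ω : Set (Subgroup G)} (h : TB Ω) {P Q : Subgroup G}
include h

theorem mem_om (P : Subgroup G) (hP : P ∈ Ω) (a : G) : a ∈ om P ↔ a ∈ P ∧ a * a = 1 := by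
  refine ⟨fun ha => ?_, fun ha => subset_closure ⟨ha.1, by rw [pow_two, ha.2]⟩⟩
  refine closure_induction (fun x hx => ⟨hx.1, by rw [← pow_two, hx.2]⟩) ⟨one_mem _, mul_one _⟩
    (fun x y _ _ hx hy => ⟨mul_mem hx.1 hy.1, ?_⟩) (fun x _ hx => ⟨inv_mem hx.1, ?_⟩) ha
  · calc x * y * (x * y) = x * (y * x) * y := by group
      _ = x * x * (y * y) := by rw [h.comm P hP y hy.1 x hx.1]; group
      _ = 1 := by rw [hx.2, hy.2, mul_one]
  · rw [← mul_inv_rev, hx.2, inv_one]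

theorem peq (P : Subgroup G) (hP : P ∈ Ω) (Q : Subgroup G) (hQ : Q ∈ Ω) (a : G) (ha : a ∈ P)
    (ha' : a ∈ Q) (h1 : a ≠ 1) : P = Q := by
  by_contra e
  exact h1 (mem_bot.1 (h.ti P hP Q hQ e ▸ mem_inf.2 ⟨ha, ha'⟩))

theorem norm (P : Subgroup G) (hP : P ∈ Ω) (a : G) (ha : a ∈ P) (h1 : a ≠ 1) (g : G)
    (hg : g * a * g⁻¹ ∈ P) : g ∈ N[P] :=
  H83.cj_eq_self_iff.1 (peq h _ (h.conj P hP g) P hP _ (H83.conj_mem_cj ha) hg (by simpa using h1))

theorem cent (P : Subgroup G) (hP : P ∈ Ω) (a : G) (ha : a ∈ P) (h1 : a ≠ 1) (g : G)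
    (hg : g * a = a * g) : g ∈ N[P] :=
  norm h P hP a ha h1 g (by rwa [hg, mul_inv_cancel_right])

theorem ex_om (hP : P ∈ Ω) : ∃ a ∈ om P, a ≠ 1 := by
  by_contra! e
  have h1 := h.four P hP
  rw [(eq_bot_iff_forall _).2 e, card_bot] at h1
  omega

theorem nom (P : Subgroup G) (hP : P ∈ Ω) : N[om P] ≤ N[P] := fun g hg => by
  obtain ⟨a, ha, h1⟩ := ex_om h hP
  exact norm h P hP a (om_le P ha) h1 g (om_le P (H83.conj_mem le_rfl hg ha))

theorem sqc [Finite G] (P : Subgroup G) (hP : P ∈ Ω) : {y | ∃ x ∈ P, y = x * x}.ncard = qq P := by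
  let f : P →* G := MonoidHom.mk' (fun x => (x : G) * x) fun a b => by
    have := h.comm P hP b b.2 a a.2
    calc (a : G) * b * (a * b) = a * (b * a) * b := by group
      _ = _ := by rw [this]; group
  have h1 : {y | ∃ x ∈ P, y = x * x} = (f.range : Set G) := by
    ext y
    exact ⟨fun ⟨x, hx, e⟩ => ⟨⟨x, hx⟩, e.symm⟩, fun ⟨x, e⟩ => ⟨x, x.2, e.symm⟩⟩
  rw [h1, ← Nat.card_coe_set_eq, SetLike.coe_sort_coe, ← index_ker, qq, relIndex]
  congr 1
  ext a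
  rw [MonoidHom.mem_ker, mem_subgroupOf, mem_om h P hP]
  exact ⟨fun e => ⟨a.2, e⟩, fun e => e.2⟩

variable [Finite G]

theorem symm (e : Ad Ω P Q) : Ad Ω Q P := by
  have : Fact (Nat.Prime 2) := ⟨Nat.prime_two⟩
  refine ⟨e.r, e.l, e.ne.symm, fun e' => ?_⟩
  obtain ⟨b, hb, b1⟩ := ex_om h e.r
  have b0 : Q ≠ ⊥ := fun e0 => b1 (mem_bot.1 (e0.le (om_le Q hb)))
  refine H83.inf_centralizer_ne_bot (h.two Q e.r) ((h.two P e.l).to_le inf_le_left)
    (inf_le_right : P ⊓ N[Q] ≤ _) b0 ?_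
  obtain ⟨⟨i, hi⟩, i1⟩ := ne_bot_iff_exists_ne_one.1 e.nb
  refine le_bot_iff.1 (e' ▸ fun b hb => ⟨hb.1, cent h P e.l i hi.1 ?_ b (hb.2 i hi).symm⟩)
  exact fun e1 => i1 (Subtype.ext e1)

theorem two (P : Subgroup G) (hP : P ∈ Ω) (Q : Subgroup G) (hQ : Q ∈ Ω) (T : Subgroup G)
    (hT : IsPGroup 2 T) (h1 : P ≤ T) (h2 : Q ≤ T) (x : G) (hx : x ∈ P) (y : G) (hy : y ∈ Q) :
    x * y = y * x := by
  have : Fact (Nat.Prime 2) := ⟨Nat.prime_two⟩
  obtain ⟨g, rfl⟩ := h.trans P hP Q hQ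
  have ti : H3.IsTISub P := fun k => (eq_or_ne _ _).imp_right (h.ti _ (h.conj P hP k) P hP)
  obtain ⟨z, hz, z1⟩ := h.nel P hP
  have := ti.cj_cent_of_le ⟨⟨fun a b => Subtype.ext (h.comm P hP a a.2 b b.2)⟩⟩
    (H3.exists_order_four (h.two P hP) ⟨z, hz, by rwa [pow_two]⟩) hT.isNilpotent (g := 1) (k := g)
    ((H83.cj_one P).le.trans h1) h2 hy
  exact this x ((H83.cj_one P).ge hx)

theorem fg (Q : Subgroup G) (hQ : Q ∈ Ω) (X F : Subgroup G) (hX : IsPGroup 2 X)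
    (hc : ∀ x ∈ X, ∀ y ∈ X, x * y = y * x) (hi : X ⊓ Q = ⊥) (hF : F ≤ Q) (hN : F ≤ N[X])
    (h4 : 4 ≤ Nat.card F) (y : G) (hy : y ∈ X) (g : G) (hg : g ∈ F) :
    y * y * g = g * (y * y) := by
  have cj1 : ∀ f ∈ F, ∀ w ∈ X, f * w * f⁻¹ ∈ X := fun f hf w hw => H83.conj_mem le_rfl (hN hf) hw
  have key : ∀ g ∈ F, g ≠ 1 → ∀ w ∈ X, w * g = g * w → ∀ f ∈ F, w * f = f * w := by
    intro g hg g1 w hw e f hf
    have h1 := cent h Q hQ g (hF hg) g1 w e
    rw [← commutatorElement_eq_one_iff_mul_comm]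
    refine mem_bot.1 (hi.le (mem_inf.2
      ⟨?_, mul_mem (H83.conj_mem le_rfl h1 (hF hf)) (inv_mem (hF hf))⟩))
    rw [show ⁅w, f⁆ = w * (f * w⁻¹ * f⁻¹) by simp only [commutatorElement_def, mul_assoc]]
    exact mul_mem hw (cj1 f hf _ (inv_mem hw))
  by_cases hs : ∃ t ∈ F, t * t ≠ 1
  · obtain ⟨t, ht, t1⟩ := hs
    let _ : CommGroup X := { (inferInstance : Group X) with
      mul_comm := fun a b => Subtype.ext (hc a a.2 b b.2) }
    obtain ⟨k, hk⟩ := H83.isPGroup_iff.1 (h.two Q hQ) t (hF ht)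
    have h1 := H81.aut_eq_of_sq_fixed hX (X.normalizerMonoidHom ⟨t, hN ht⟩) k
      (by rw [← map_pow, show (⟨t, hN ht⟩ : N[X]) ^ 2 ^ k = 1 from Subtype.ext hk, map_one])
      (fun a ha => by
        have h2 : t * (t * a * t⁻¹) * t⁻¹ = a := congrArg Subtype.val ha
        have h3 := key (t * t) (mul_mem ht ht) t1 a a.2 (by
          calc (a : G) * (t * t) = t * (t * a * t⁻¹) * t⁻¹ * (t * t) := by rw [h2]
            _ = _ := by group) t ht
        exact Subtype.ext (show t * a * t⁻¹ = a by rw [← h3]; group)) ⟨y * y, mul_mem hy hy⟩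
    have h2 : t * (y * y) * t⁻¹ = y * y := congrArg Subtype.val h1
    exact key t ht (fun e => t1 (by rw [e, mul_one])) _ (mul_mem hy hy)
      (mul_inv_eq_iff_eq_mul.1 h2).symm g hg
  push Not at hs
  by_cases g1 : g = 1
  · rw [g1, mul_one, one_mul]
  have inv : ∀ f ∈ F, f⁻¹ = f := fun f hf => inv_eq_of_mul_eq_one_right (hs f hf)
  obtain ⟨f, hf, f1, fg⟩ : ∃ f ∈ F, f ≠ 1 ∧ f ≠ g := by
    by_contra! e
    have h1 : (F : Set G) ⊆ {1, g} := fun f hf => by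
      by_cases f1 : f = 1
      · exact Or.inl f1
      · exact Or.inr (e f hf f1)
    have h2 := (Set.ncard_le_ncard h1).trans (Set.ncard_insert_le _ _)
    rw [Set.ncard_singleton, ← Nat.card_coe_set_eq, SetLike.coe_sort_coe] at h2
    omega
  have fc : ∀ a ∈ F, ∀ b ∈ F, a * b = b * a := fun a ha b hb => h.comm Q hQ a (hF ha) b (hF hb)
  set u := y⁻¹ * (g * y * g⁻¹) with hu
  have uX : u ∈ X := mul_mem (inv_mem hy) (cj1 g hg y hy)
  have iv : ∀ t ∈ F, t ≠ 1 → t * u * t⁻¹ = u⁻¹ := by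
    intro t ht t1
    have y' := cj1 t ht y hy
    have h1 := key t ht t1 (y * (t * y * t⁻¹)) (mul_mem hy y') (by
      calc y * (t * y * t⁻¹) * t = y * t * y := by group
        _ = t * (t⁻¹ * y * t * y) := by group
        _ = t * (t * y * t⁻¹ * y) := by rw [inv t ht]
        _ = _ := by rw [hc _ y' y hy]) g hg
    have h2 : g * y * g⁻¹ * (t * (g * y * g⁻¹) * t⁻¹) = y * (t * y * t⁻¹) := by
      calc _ = g * y * (g⁻¹ * t * g) * y * (t * g)⁻¹ := by group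
        _ = g * y * t * y * (g * t)⁻¹ := by
          rw [fc t ht g hg, mul_assoc g⁻¹, fc t ht g hg, inv_mul_cancel_left]
        _ = g * (y * (t * y * t⁻¹)) * g⁻¹ := by group
        _ = _ := by rw [← h1, mul_inv_cancel_right]
    rw [eq_inv_iff_mul_eq_one]
    calc t * u * t⁻¹ * u = (t * y * t⁻¹)⁻¹ * (t * (g * y * g⁻¹) * t⁻¹ * u) := by
          rw [hu]; group
      _ = (t * y * t⁻¹)⁻¹ * (y⁻¹ * (g * y * g⁻¹ * (t * (g * y * g⁻¹) * t⁻¹))) := by
          rw [hc _ (cj1 t ht _ (cj1 g hg y hy)) u uX, hu]; group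
      _ = 1 := by rw [h2]; group
  have h1 : u = u⁻¹ := by
    have h2 := iv (f * g) (mul_mem hf hg) (fun e => fg (by
      rw [← inv g hg]; exact eq_inv_of_mul_eq_one_left e))
    rw [← h2]
    calc u = f * u⁻¹ * f⁻¹ := by
          rw [show f * u⁻¹ * f⁻¹ = (f * u * f⁻¹)⁻¹ by group, iv f hf f1, inv_inv]
      _ = f * (g * u * g⁻¹) * f⁻¹ := by rw [iv g hg g1]
      _ = _ := by group
  have h2 : g * y * g⁻¹ = y * u := by rw [hu]; group
  calc y * y * g = y * y * (u * u) * g := by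
        rw [eq_inv_iff_mul_eq_one.1 h1, mul_one]
    _ = y * (y * u) * u * g := by group
    _ = y * (u * y) * u * g := by rw [hc y hy u uX]
    _ = y * u * (y * u) * g := by group
    _ = _ := by rw [← h2]; simp only [mul_assoc, inv_mul_cancel_left, inv_mul_cancel, mul_one]

omit h in
theorem la : LAStmt.{u} := fun _ h =>
  { mem_om := mem_om h, eq := peq h, cent := cent h, norm := norm h
    com := fun P hP => (centralizer_le_normalizer _).trans (nom h P hP)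
    nom := nom h, sqc := sqc h, symm := symm h
    nsymm := fun e => ⟨symm h e.toAd, by
      obtain ⟨x, hx, y, hy, a⟩ := e.nc
      exact ⟨y, hy, x, hx, fun b => a b.symm⟩⟩
    two := two h, fg := fg h }

end Cfsg.Agent.H6.TB.La
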