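import Cfsg.Agent.H6.TBLe1
import Cfsg.Agent.S1781

/-! Project TB: edges. -/

set_option autoImplicit false

namespace Cfsg.Agent.H6.TB.Le

open Cfsg Subgroup
open Cfsg.Agent.H83 (cj)
open Cfsg.Agent.H64.TiBA (cjN brL brR br_mul le_N_of_comm)
open scoped Cfsg.Agent.H63 commutatorElement

universe u

variable {G : Type u} [Group G]

theorem ex_sq {H : Subgroup G} (k : ℕ) : ∀ x : G, x ∉ H → x ^ 2 ^ k = 1 →
    ∃ y ∈ zpowers x, y ∉ H ∧ y * y ∈ H := by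
  induction k with
  | zero => exact fun x h1 h2 => absurd (by rw [pow_zero, pow_one] at h2; exact h2 ▸ one_mem H) h1
  | succ k ih =>
    intro x h1 h2
    by_cases h3 : x * x ∈ H
    · exact ⟨x, mem_zpowers x, h1, h3⟩
    obtain ⟨y, h4, h5⟩ := ih (x * x) h3 (by rw [← pow_two, ← pow_mul, ← pow_succ', h2])
    exact ⟨y, zpowers_le.2 (mul_mem (mem_zpowers x) (mem_zpowers x)) h4, h5⟩

theorem ex_third [Finite G] {F : Subgroup G} (h4 : 4 ≤ Nat.card F) (g : G) :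
    ∃ f ∈ F, f ≠ 1 ∧ f ≠ g := by
  by_contra! e
  have h1 : (F : Set G) ⊆ {1, g} := fun f hf => by
    by_cases f1 : f = 1
    · exact Or.inl f1
    · exact Or.inr (e f hf f1)
  have h2 := (Set.ncard_le_ncard h1).trans (Set.ncard_insert_le _ _)
  rw [Set.ncard_singleton, ← Nat.card_coe_set_eq, SetLike.coe_sort_coe] at h2
  omega

variable [Finite G] {Ω : Set (Subgroup G)} (h : TB Ω) (la : LA Ω) {P Q : Subgroup G}
include h

theorem axsq (e : Nc Ω P Q) (i : G) (hi : i ∈ P ⊓ N[Q]) : i * i = 1 := by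
  obtain ⟨g, rfl⟩ := h.trans P e.l Q e.r
  rcases S1781.result P (h.two P e.l) ⟨⟨fun a b => Subtype.ext (h.comm P e.l a a.2 b b.2)⟩⟩
    (fun k => (eq_or_ne _ _).imp_right (h.ti _ (h.conj P e.l k) P e.l)) g e.ne.symm with a | a
  · rw [← pow_two]; exact a.2 i hi
  · obtain ⟨x, hx, y, hy, c⟩ := e.nc
    exact absurd (H83.comm_eq_bot_iff.1 a hy x hx) c

omit [Finite G] in
theorem axcm (e : Ad Ω P Q) (i : G) (hi : i ∈ P ⊓ N[Q]) (j : G) (hj : j ∈ Q ⊓ N[P]) :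
    i * j = j * i :=
  commutatorElement_eq_one_iff_mul_comm.1
    (mem_bot.1 (h.ti P e.l Q e.r e.ne ▸ mem_inf.2 ⟨brL hj.2 hi.1, brR hi.2 hj.1⟩))

include la

omit h [Finite G] in
theorem axc (e : Ad Ω P Q) (x : G) (hx : x ∈ P) (j : G) (hj : j ∈ Q ⊓ N[P]) (j1 : j ≠ 1)
    (c : x * j = j * x) : x ∈ P ⊓ N[Q] := ⟨hx, la.cent Q e.r j hj.1 j1 x c⟩

theorem axbr (e : Nc Ω P Q) (x : G) (hx : x ∈ P) (h2 : x * x ∈ P ⊓ N[Q]) (j : G)
    (hj : j ∈ Q ⊓ N[P]) : ⁅x, j⁆ * ⁅x, j⁆ = 1 ∧ ⁅x, j⁆ ∈ P ⊓ N[Q] := by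
  have h1 : ⁅x, j⁆ * ⁅x, j⁆ = 1 := by
    have c := h.comm P e.l _ (cjN hj.2 (inv_mem hx)) x hx
    calc _ = x * (j * x⁻¹ * j⁻¹ * x) * j * x⁻¹ * j⁻¹ := by simp only [commutatorElement_def]; group
      _ = x * x * j * (x * x)⁻¹ * j⁻¹ := by rw [c]; group
      _ = 1 := by rw [axcm h e.toAd _ h2 j hj]; group
  refine ⟨h1, ?_⟩
  by_cases j1 : j = 1
  · rw [j1, commutatorElement_one_right]; exact one_mem _
  refine axc la e.toAd _ (brL hj.2 hx) j hj j1 ?_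
  have j2 := inv_eq_of_mul_eq_one_right (axsq h (la.nsymm e) j hj)
  calc ⁅x, j⁆ * j = ⁅x, j⁆⁻¹ * j := by rw [inv_eq_of_mul_eq_one_right h1]
    _ = j * (x * j⁻¹ * x⁻¹ * j) := by simp only [commutatorElement_def]; group
    _ = _ := by rw [commutatorElement_def, j2]

omit [Finite G] h la in
theorem ex_ax (e : Ad Ω P Q) : ∃ i ∈ P ⊓ N[Q], i ≠ 1 := by
  by_contra! c
  exact e.nb ((eq_bot_iff_forall _).2 c)

omit [Finite G] in
theorem ex_four (hP : P ∈ Ω) : ∃ x ∈ P, x * x ≠ 1 ∧ x * x ∈ om P := by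
  obtain ⟨z, hz, z1⟩ := h.nel P hP
  obtain ⟨k, hk⟩ := H83.isPGroup_iff.1 (h.two P hP) z hz
  obtain ⟨y, h1, h2, h3⟩ := ex_sq k z (fun a => z1 ((la.mem_om P hP z).1 a).2) hk
  have h4 := zpowers_le.2 hz h1
  exact ⟨y, h4, fun a => h2 ((la.mem_om P hP y).2 ⟨h4, a⟩), h3⟩

/-- `x x^j` lies in the axis. -/
theorem axtr (e : Nc Ω P Q) (x : G) (hx : x ∈ P) (j : G) (hj : j ∈ Q ⊓ N[P]) (j1 : j ≠ 1) :
    x * (j * x * j⁻¹) ∈ P ⊓ N[Q] := by
  refine axc la e.toAd _ (mul_mem hx (cjN hj.2 hx)) j hj j1 ?_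
  have j2 := inv_eq_of_mul_eq_one_right (axsq h (la.nsymm e) j hj)
  calc x * (j * x * j⁻¹) * j = j * (j⁻¹ * x * j * x) := by group
    _ = j * (j * x * j⁻¹ * x) := by rw [j2]
    _ = _ := by rw [h.comm P e.l _ (cjN hj.2 hx) x hx]

theorem ax_two (e : Nc Ω P Q) : ∃ i ∈ P ⊓ N[Q], ∃ i' ∈ P ⊓ N[Q], i ≠ 1 ∧ i' ≠ 1 ∧ i ≠ i' := by
  by_contra! c
  obtain ⟨i, hi, i1⟩ := ex_ax e.toAd
  obtain ⟨j, hj, j1⟩ := ex_ax (la.symm e.toAd)
  obtain ⟨a, ha, a1, a2⟩ := ex_third (h.four P e.l) i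
  obtain ⟨ha1, ha2⟩ := (la.mem_om P e.l a).1 ha
  obtain ⟨x, hx, x1, x2⟩ := ex_four h la e.l
  have c1 : ∀ y ∈ P, y * y ∈ P ⊓ N[Q] → y ∉ P ⊓ N[Q] → ⁅y, j⁆ = i := fun y hy h1 h2 =>
    c _ (axbr h la e y hy h1 j hj).2 i hi
      (fun b => h2 (axc la e.toAd y hy j hj j1 (commutatorElement_eq_one_iff_mul_comm.1 b))) i1
  have h1 := c1 a ha1 (ha2 ▸ one_mem _) fun b => a2 (c a b i hi a1 i1)
  have h2 : x * x ∈ P ⊓ N[Q] := by
    refine axc la e.toAd _ (mul_mem hx hx) j hj j1 ?_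
    have h3 := axsq h e _ (axtr h la e x hx j hj j1)
    have h4 : x * x * (j * (x * x) * j⁻¹) = 1 := by
      calc _ = x * (x * (j * x * j⁻¹)) * (j * x * j⁻¹) := by group
        _ = x * (j * x * j⁻¹ * x) * (j * x * j⁻¹) := by rw [h.comm P e.l x hx _ (cjN hj.2 hx)]
        _ = _ := by rw [← h3]; group
    rw [mul_inv_eq_iff_eq_mul.1 (eq_inv_of_mul_eq_one_right h4),
      inv_eq_of_mul_eq_one_right ((la.mem_om P e.l _).1 x2).2]
  have h3 := c1 x hx h2 fun b => x1 (axsq h e x b)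
  have h4 : x * a * (x * a) = x * x := by
    calc _ = x * (a * x) * a := by group
      _ = x * x * (a * a) := by rw [h.comm P e.l a ha1 x hx]; group
      _ = _ := by rw [ha2, mul_one]
  refine x1 (h4 ▸ axsq h e _ (axc la e.toAd _ (mul_mem hx ha1) j hj j1 ?_))
  rw [← commutatorElement_eq_one_iff_mul_comm]
  calc ⁅x * a, j⁆ = x * ⁅a, j⁆ * x⁻¹ * ⁅x, j⁆ := by simp only [commutatorElement_def]; group
    _ = 1 := by rw [h1, h3, h.comm P e.l x hx i hi.1, mul_inv_cancel_right, axsq h e i hi]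

theorem ax_sq (e : Nc Ω P Q) (x : G) (hx : x ∈ P) : x * x ∈ P ⊓ N[Q] := by
  obtain ⟨j, hj, j', hj', j1, j2, j3⟩ := ax_two h la (la.nsymm e)
  have h1 := axtr h la e x hx j hj j1
  have h2 := axtr h la e x hx j' hj' j2
  have h3 := axtr h la e x hx _ (mul_mem hj hj') fun a => j3 (by
    rw [eq_inv_of_mul_eq_one_left a, inv_eq_of_mul_eq_one_right (axsq h (la.nsymm e) j' hj')])
  have h4 : x * x = x * (j * x * j⁻¹) * (x * (j * j' * x * (j * j')⁻¹)) *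
      (x * (j' * x * j'⁻¹))⁻¹ := by
    have h5 : x * (j' * x * j'⁻¹) = j * (x * (j' * x * j'⁻¹)) * j⁻¹ := by
      rw [← axcm h e.toAd _ h2 j hj, mul_inv_cancel_right]
    rw [h5, ← mul_assoc (x * _), mul_assoc x _ x, h.comm P e.l _ (cjN hj.2 hx) x hx]
    calc x * x = x * x * (j * x * j⁻¹) * (j * x * j⁻¹)⁻¹ := by group
      _ = x * (x * (j * x * j⁻¹)) * (j * j' * x * (j * j')⁻¹) *
          (j * x * j⁻¹ * (j * j' * x * (j * j')⁻¹))⁻¹ := by group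
      _ = _ := by group
  rw [h4]
  exact mul_mem (mul_mem h1 h3) (inv_mem h2)

theorem pr0 (e : Nc Ω P Q) : Pr Ω P Q (P ⊓ N[Q]) (Q ⊓ N[P]) :=
  ⟨e.l, e.r, e.ne, inf_le_left, inf_le_left, axsq h e, axsq h (la.nsymm e), axcm h e.toAd,
    fun x hx j hj => (axbr h la e x hx (ax_sq h la e x hx) j hj).2,
    fun x hx j hj => (axbr h la (la.nsymm e) x hx (ax_sq h la (la.nsymm e) x hx) j hj).2⟩

theorem pt0 (e : Nc Ω P Q) : Pt Ω (P ⊓ N[Q] ⊔ Q ⊓ N[P]) P :=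
  (pr0 h la e).pt h (ax_sq h la e) (ex_ax e.toAd) (axc la e.toAd)

theorem ax (e : Nc Ω P Q) : P ⊓ N[Q] = om P := by
  refine le_antisymm (fun i hi => (la.mem_om P e.l i).2 ⟨hi.1, axsq h e i hi⟩) fun a ha => ?_
  by_contra a1
  obtain ⟨ha1, ha2⟩ := (la.mem_om P e.l a).1 ha
  obtain ⟨y, hy, y1⟩ := h.nel Q e.r
  have p := pr0 h la e
  have q := pt0 h la (la.nsymm e)
  rw [sup_comm] at q
  have v : ∀ w ∈ P ⊓ N[Q] ⊔ Q ⊓ N[P], w ∈ Q → w ∈ om Q := fun w h1 h2 =>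
    (la.mem_om Q e.r w).2 ⟨h2, p.vsq w h1⟩
  obtain ⟨l, -, hl⟩ := swap_of h la p.vcomm p.vsq (pt0 h la e) q e.ne ha1
    (fun b => a1 (p.vinf h ▸ mem_inf.2 ⟨b, ha1⟩)) hy fun b => y1 (p.vsq y b)
  obtain ⟨h1, -, h2, -⟩ := hl _ rfl
  have h3 := H83.conj_mem_cj (g := l * a * l⁻¹) ha
  rw [← om_cj, h1] at h3
  have h4 := mul_mem (inv_mem (v _ h2 (mul_mem (om_le Q h3) (inv_mem hy)))) h3
  rw [mul_inv_rev, inv_inv, inv_mul_cancel_right] at h4
  exact y1 ((la.mem_om Q e.r y).1 h4).2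

theorem pr (e : Ad Ω P Q) : Pr Ω P Q (om P) (om Q) := by
  rcases e.cm_or with c | c
  · have k : ∀ x ∈ P, ∀ j ∈ Q, ⁅x, j⁆ = 1 := fun x hx j hj =>
      commutatorElement_eq_one_iff_mul_comm.2 (c.comm x hx j hj)
    exact ⟨e.l, e.r, e.ne, om_le P, om_le Q, fun i hi => ((la.mem_om P e.l i).1 hi).2,
      fun i hi => ((la.mem_om Q e.r i).1 hi).2, fun i hi j hj => c.comm i (om_le P hi) j (om_le Q hj),
      fun x hx j hj => k x hx j (om_le Q hj) ▸ one_mem _, fun x hx j hj => by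
        rw [← commutatorElement_inv, k j (om_le P hj) x hx, inv_one]; exact one_mem _⟩
  · have := pr0 h la c
    rwa [ax h la c, ax h la (la.nsymm c)] at this

theorem pt (e : Nc Ω P Q) : Pt Ω (vv P Q) P := by
  have := pt0 h la e
  rwa [ax h la e, ax h la (la.nsymm e)] at this

theorem pt' (e : Nc Ω P Q) : Pt Ω (vv P Q) Q := vv_comm P Q ▸ pt h la (la.nsymm e)

theorem nv (e : Ad Ω P Q) {x : G} (hx : x ∈ P) (hx' : x ∉ om P) : x ∉ vv P Q :=
  fun b => hx' ((pr h la e).vinf h ▸ mem_inf.2 ⟨b, hx⟩)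

theorem cA (e : Nc Ω P Q) (x : G) (hx : x ∈ P) (v : G) (hv : v ∈ vv P Q) (hv' : v ∉ om P)
    (c : x * v = v * x) : x ∈ om P := by
  by_contra a
  exact hv' ((pr h la e.toAd).vinf h ▸ mem_inf.2 ⟨hv, (pt h la e).cA x hx (nv h la e.toAd hx a) v hv c⟩)

theorem phi (e : Nc Ω P Q) (x : G) (hx : x ∈ P) (hx' : x ∉ om P) (i : G) (hi : i ∈ om P) :
    ∃! j, j ∈ om Q ∧ ⁅x, j⁆ = i := by
  have p := pr h la e.toAd
  have inj : ∀ j ∈ om Q, ∀ j' ∈ om Q, ⁅x, j⁆ = ⁅x, j'⁆ → j = j' := by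
    intro j hj j' hj' e1
    have e2 := p.mul1 h x hx j (mem_sup_right hj) j' (mem_sup_right hj')
    rw [e1, p.sq _ (p.br x hx j' hj'), commutatorElement_eq_one_iff_mul_comm] at e2
    have e3 := (pt h la e).cA x hx (nv h la e.toAd hx hx') _ (mem_sup_right (mul_mem hj hj')) e2
    rw [eq_inv_of_mul_eq_one_left (p.one_of h e3 (om_le Q (mul_mem hj hj'))),
      inv_eq_of_mul_eq_one_right (p.sq' j' hj')]
  have f : Function.Injective fun j : om Q => (⟨⁅x, (j : G)⁆, p.br x hx j j.2⟩ : om P) :=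
    fun j j' e1 => Subtype.ext (inj j j.2 j' j'.2 (congrArg Subtype.val e1))
  obtain ⟨j, hj⟩ := (f.bijective_of_nat_card_le (h.card e.l e.r).1.le).2 ⟨i, hi⟩
  have e1 : ⁅x, (j : G)⁆ = i := congrArg Subtype.val hj
  exact ⟨j, ⟨j.2, e1⟩, fun j' hj' => inj j' hj'.1 j j.2 (hj'.2.trans e1.symm)⟩

omit h la [Finite G] in
theorem iv_iff {j x : G} : Iv j x ↔ ⁅x, j⁆ = x * x := by
  rw [Iv, show ⁅x, j⁆ = x * (j * x * j⁻¹)⁻¹ by simp only [commutatorElement_def]; group,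
    mul_right_inj, inv_eq_iff_eq_inv]

omit h la [Finite G] in
theorem le : LEStmt.{u} := fun _ h la =>
  { adc := fun e => (pr h la e).cm
    ax := ax h la
    sq := fun e x hx => ax h la e ▸ ax_sq h la e x hx
    qh := fun {P Q} e => by
      rw [← la.sqc P e.l, ← SetLike.coe_sort_coe, Nat.card_coe_set_eq]
      refine Set.ncard_le_ncard ?_
      rintro _ ⟨x, hx, rfl⟩
      exact ax h la e ▸ ax_sq h la e x hx
    vmem := fun e => (pr h la e).vmem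
    vsq := fun e => (pr h la e).vsq
    vcomm := fun e => (pr h la e).vcomm
    vcard := fun e => ((pr h la e).vcard h).trans (by rw [← (h.card e.l e.r).1])
    vinf := fun e => (pr h la e).vinf h
    vle := fun e => (pr h la e).vle
    vnorm := fun e => (pr h la e).vnorm h
    brk := fun e => (pr h la e).brk h
    mul1 := fun e => (pr h la e).mul1 h
    mul2 := fun e => (pr h la e).mul2 h
    cA := cA h la
    phi := phi h la
    ivE := fun e x hx hx' => by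
      simp only [iv_iff]
      exact phi h la e x hx hx' _ (ax h la e ▸ ax_sq h la e x hx)
    odd := fun {P Q} e x hx hx' y hy hy' => by
      have p := pr h la e.toAd
      have x1 := nv h la e.toAd hx hx'
      have y1 := vv_comm P Q ▸ nv h la (la.symm e.toAd) hy hy'
      refine ⟨odd_of h la p.vcomm p.vsq (pt h la e) (pt' h la e) e.ne hx x1 hy y1, fun v hv c => ?_⟩
      have h1 : ⁅y, v⁆ = ⁅x⁻¹, v⁆ := by
        calc ⁅y, v⁆ = x⁻¹ * (x * y * v) * y⁻¹ * v⁻¹ := by simp only [commutatorElement_def]; group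
          _ = _ := by rw [c]; simp only [commutatorElement_def]; group
      have h2 := p.brk h _ (inv_mem hx) v hv
      have h3 := p.symm.brk h y hy v (sup_comm (om P) (om Q) ▸ hv)
      have h4 := p.one_of h (om_le P (h1 ▸ h2)) (om_le Q h3)
      exact p.one_of h ((pt h la e).cA _ (inv_mem hx) (fun a => x1 (inv_mem_iff.1 a)) v hv
        (commutatorElement_eq_one_iff_mul_comm.1 (h1 ▸ h4)))
        ((pt' h la e).cA y hy y1 v hv (commutatorElement_eq_one_iff_mul_comm.1 h4))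
    swap := fun {P Q} e x hx hx' y hy hy' => by
      have p := pr h la e.toAd
      obtain ⟨l, hl, k⟩ := swap_of h la p.vcomm p.vsq (pt h la e) (pt' h la e) e.ne hx
        (nv h la e.toAd hx hx') hy fun a => nv h la (la.symm e.toAd) hy hy' (vv_comm P Q ▸ a)
      refine ⟨_, cj l P, ⟨l, (closure_le _).2 (Set.insert_subset (mem_sup_left hx)
        (Set.singleton_subset_iff.2 (mem_sup_right hy))) hl, rfl⟩, H83.conj_mem_cj hx, fun a => hx' ?_,
        mul_mem (mul_mem hl (subset_closure (by simp))) (inv_mem hl), k _ rfl⟩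
      rw [om_cj, H83.mem_cj] at a
      simpa [mul_assoc] using a }

end Cfsg.Agent.H6.TB.Le
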