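import Cfsg.Agent.H6.TBDefs
import Cfsg.Agent.H64.TiBA
import Cfsg.Agent.H22.TIBB

/-! Project TB: dihedral groups modulo an elementary abelian subgroup, pairs of points. -/

set_option autoImplicit false

namespace Cfsg.Agent.H6.TB.Le

open Cfsg Subgroup
open Cfsg.Agent.H83 (cj)
open Cfsg.Agent.H64.TiBA (cjN brL brR br_mul le_N_of_comm)
open Cfsg.Agent.H22.TIBB (dih dih_a dih_b)
open scoped Cfsg.Agent.H63 commutatorElement

universe u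

variable {G : Type u} [Group G]

theorem dihH [Finite G] {a b : G} (sa : a * a = 1) (sb : b * b = 1) :
    Odd (orderOf (a * b)) ∨ ∃ m k : ℕ, (a * b) ^ m ≠ 1 ∧ Commute a ((a * b) ^ m) ∧
      Commute b ((a * b) ^ m) ∧ ((a * b) ^ k * a * ((a * b) ^ k)⁻¹ = (a * b) ^ m * a ∨
        (a * b) ^ k * b * ((a * b) ^ k)⁻¹ = (a * b) ^ m * a) := by
  refine or_iff_not_imp_left.2 fun hc => ?_
  obtain ⟨m, hm⟩ := Nat.not_odd_iff_even.1 hc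
  have hpos := orderOf_pos (a * b)
  have z1 : (a * b) ^ m ≠ 1 := pow_ne_one_of_lt_orderOf (by omega) (by omega)
  have z2 : ((a * b) ^ m)⁻¹ = (a * b) ^ m :=
    inv_eq_of_mul_eq_one_right (by rw [← pow_add, ← hm, pow_orderOf_eq_one])
  have za : a * (a * b) ^ m = (a * b) ^ m * a := by rw [← dih sa sb, z2]
  have zb : b * (a * b) ^ m = (a * b) ^ m * b := by
    have c1 : Commute a ((a * b) ^ m) := za
    have c2 := (c1.inv_left.mul_left ((Commute.refl (a * b)).pow_right m)).eq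
    rwa [inv_mul_cancel_left] at c2
  obtain ⟨k, e | e⟩ := Nat.even_or_odd' m
  · exact ⟨m, k, z1, za, zb, Or.inl (e ▸ dih_a sa sb k)⟩
  · exact ⟨m, k + 1, z1, za, zb, Or.inr (e ▸ dih_b sa sb k)⟩

theorem pe {V : Subgroup G} (u w : N[V]) :
    QuotientGroup.mk' (V.subgroupOf N[V]) u = QuotientGroup.mk' (V.subgroupOf N[V]) w ↔
      (u : G) * (w : G)⁻¹ ∈ V := by
  rw [QuotientGroup.mk'_apply, QuotientGroup.mk'_apply, QuotientGroup.eq_iff_div_mem,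
    div_eq_mul_inv, mem_subgroupOf]
  rfl

theorem pe1 {V : Subgroup G} (u : N[V]) :
    QuotientGroup.mk' (V.subgroupOf N[V]) u = 1 ↔ (u : G) ∈ V := by
  rw [← map_one (QuotientGroup.mk' (V.subgroupOf N[V])), pe]
  simp

theorem pc {V : Subgroup G} (u w : N[V]) (c : Commute (QuotientGroup.mk' (V.subgroupOf N[V]) u)
    (QuotientGroup.mk' (V.subgroupOf N[V]) w)) : ⁅(u : G), (w : G)⁆ ∈ V :=
  (pe1 ⁅u, w⁆).1 (by rw [map_commutatorElement]; exact commutatorElement_eq_one_iff_commute.2 c)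

theorem dihV [Finite G] {V : Subgroup G} {x y : G} (hx : x ∈ N[V]) (hy : y ∈ N[V])
    (sx : x * x ∈ V) (sy : y * y ∈ V) : (∃ k, Odd k ∧ (x * y) ^ k ∈ V) ∨
      ∃ l ∈ N[V], ∃ p, (p = l * x * l⁻¹ ∨ p = l * y * l⁻¹) ∧ ⁅p, x⁆ ∈ V ∧ p * x⁻¹ ∉ V ∧
        ⁅p * x⁻¹, y⁆ ∈ V := by
  let π := QuotientGroup.mk' (V.subgroupOf N[V])
  let a : N[V] := ⟨x, hx⟩
  let b : N[V] := ⟨y, hy⟩
  rcases dihH (a := π a) (b := π b) (by rw [← map_mul]; exact (pe1 _).2 sx)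
    (by rw [← map_mul]; exact (pe1 _).2 sy) with o | ⟨m, k, z1, za, zb, e⟩
  · exact Or.inl ⟨_, o, (pe1 ((a * b) ^ orderOf (π a * π b))).1
      (by rw [map_pow, map_mul, pow_orderOf_eq_one])⟩
  obtain ⟨p, h1, h2⟩ : ∃ p : N[V], (p = (a * b) ^ k * a * ((a * b) ^ k)⁻¹ ∨
      p = (a * b) ^ k * b * ((a * b) ^ k)⁻¹) ∧ π p = (π a * π b) ^ m * π a := by
    rcases e with e | e
    · exact ⟨_, Or.inl rfl, by simpa only [map_mul, map_pow, map_inv] using e⟩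
    · exact ⟨_, Or.inr rfl, by simpa only [map_mul, map_pow, map_inv] using e⟩
  have h3 : π (p * a⁻¹) = (π a * π b) ^ m := by rw [map_mul, map_inv, h2, mul_inv_cancel_right]
  exact Or.inr ⟨((a * b) ^ k : N[V]), ((a * b) ^ k).2, p,
    h1.imp (congrArg Subtype.val) (congrArg Subtype.val),
    pc p a (h2 ▸ za.symm.mul_left (Commute.refl _)), fun c => z1 (h3 ▸ (pe1 (p * a⁻¹)).2 c),
    pc (p * a⁻¹) b (h3 ▸ zb.symm)⟩

theorem swapV {V : Subgroup G} {x y : G} (hx : x ∈ N[V]) (hy : y ∈ N[V])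
    (sx : x * x ∈ V) (sy : y * y ∈ V) {k : ℕ} (o : Odd k) (hk : (x * y) ^ k ∈ V) :
    ∃ l ∈ closure ({x, y} : Set G), ∀ s, s = l * x * l⁻¹ →
      s * x * s⁻¹ * y⁻¹ ∈ V ∧ s * y * s⁻¹ * x⁻¹ ∈ V := by
  let π := QuotientGroup.mk' (V.subgroupOf N[V])
  let a : N[V] := ⟨x, hx⟩
  let b : N[V] := ⟨y, hy⟩
  obtain ⟨m, rfl⟩ := o
  have sa : π a * π a = 1 := by rw [← map_mul]; exact (pe1 _).2 sx
  have sb : π b * π b = 1 := by rw [← map_mul]; exact (pe1 _).2 sy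
  have h1 : (π a * π b) ^ (2 * m + 1) = 1 := by
    rw [← map_mul, ← map_pow]; exact (pe1 _).2 hk
  let s : N[V] := (a * b) ^ (m * (m + 1)) * a * ((a * b) ^ (m * (m + 1)))⁻¹
  have h2 : π s = (π a * π b) ^ (m * (m + 1)) * π a * ((π a * π b) ^ (m * (m + 1)))⁻¹ := by
    simp only [s, map_mul, map_pow, map_inv]
  have h3 : π s * π s = 1 := by
    rw [h2]
    calc _ = (π a * π b) ^ (m * (m + 1)) * (π a * π a) * ((π a * π b) ^ (m * (m + 1)))⁻¹ := by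
          group
      _ = 1 := by rw [sa]; group
  have h4 : π s * π a * (π s)⁻¹ = π b := by
    have h5 : (π a * π b) ^ (2 * (2 * (m * (m + 1)))) * (π a * π b) = 1 := by
      rw [← pow_succ, show 2 * (2 * (m * (m + 1))) + 1 = (2 * m + 1) * (2 * m + 1) by ring, pow_mul,
        h1, one_pow]
    rw [h2, dih_a sa sb, show ∀ t c : N[V] ⧸ V.subgroupOf N[V], t * c * c * (t * c)⁻¹ = t * c * t⁻¹
      from fun t c => by group, dih_a sa sb, ← inv_eq_of_mul_eq_one_right sb, eq_inv_iff_mul_eq_one,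
      inv_eq_of_mul_eq_one_right sb, mul_assoc, h5]
  refine ⟨(x * y) ^ (m * (m + 1)), pow_mem (mul_mem (subset_closure (by simp))
    (subset_closure (by simp))) _, ?_⟩
  rintro _ rfl
  refine ⟨(pe (s * a * s⁻¹) b).1 (by rw [map_mul, map_mul, map_inv]; exact h4),
    (pe (s * b * s⁻¹) a).1 ?_⟩
  rw [map_mul, map_mul, map_inv]
  change π s * π b * (π s)⁻¹ = π a
  calc _ = π s * π s * π a * (π s * π s)⁻¹ := by rw [← h4]; group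
    _ = _ := by rw [h3]; group

/-- A point over `V`. -/
structure Pt (Ω : Set (Subgroup G)) (V R : Subgroup G) : Prop where
  mem : R ∈ Ω
  n : R ≤ N[V]
  sq : ∀ p ∈ R, p * p ∈ V
  cA : ∀ p ∈ R, p ∉ V → ∀ v ∈ V, p * v = v * p → v ∈ R
  ne : ∃ i ∈ R, i ∈ V ∧ i ≠ 1

theorem nmem_iff {V : Subgroup G} {l x : G} (hl : l ∈ N[V]) : l * x * l⁻¹ ∈ V ↔ x ∈ V :=
  (mem_normalizer_iff.1 hl x).symm

variable {Ω : Set (Subgroup G)} {P Q R R' I J V : Subgroup G}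

theorem Pt.cj (h : TB Ω) (p : Pt Ω V R) {l : G} (hl : l ∈ N[V]) : Pt Ω V (cj l R) := by
  refine ⟨h.conj _ p.mem l, H83.cj_le_of_mem p.n hl, ?_, ?_, ?_⟩
  · rintro _ ⟨x, hx, rfl⟩
    rw [← map_mul]
    exact cjN hl (p.sq x hx)
  · rintro _ ⟨x, hx, rfl⟩ h1 v hv e
    refine H83.mem_cj.2 (p.cA x hx (fun a => h1 (cjN hl a)) _ (H83.conj_mem' le_rfl hl hv) ?_)
    have e' : l * x * l⁻¹ * v = v * (l * x * l⁻¹) := e
    calc x * (l⁻¹ * v * l) = l⁻¹ * (l * x * l⁻¹ * v) * l := by group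
      _ = _ := by rw [e']; group
  · obtain ⟨i, h1, h2, h3⟩ := p.ne
    exact ⟨_, H83.conj_mem_cj h1, cjN hl h2, by simpa using h3⟩

theorem Pt.mv (h : TB Ω) (la : LA Ω) (hV : ∀ v ∈ V, ∀ w ∈ V, v * w = w * v) (p : Pt Ω V R)
    (q : Pt Ω V R') {x y s : G} (hx : x ∈ R) (hy : y ∈ R') (hy' : y ∉ V) (hs : s ∈ N[V])
    (e : s * x * s⁻¹ * y⁻¹ ∈ V) : H83.cj s R = R' := by
  obtain ⟨i, h1, h2, h3⟩ := p.ne
  refine la.eq _ (h.conj _ p.mem s) _ q.mem _ (H83.conj_mem_cj h1)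
    (q.cA y hy hy' _ (cjN hs h2) ?_) (by simpa using h3)
  have c1 : Commute (s * x * s⁻¹) (s * i * s⁻¹) := by
    rw [Commute, SemiconjBy]
    calc _ = s * (x * i) * s⁻¹ := by group
      _ = _ := by rw [h.comm R p.mem x hx i h1]; group
  have c2 : Commute (s * x * s⁻¹ * y⁻¹) (s * i * s⁻¹) := hV _ e _ (cjN hs h2)
  have c3 := c2.inv_left.mul_left c1
  rw [show (s * x * s⁻¹ * y⁻¹)⁻¹ * (s * x * s⁻¹) = y by group] at c3
  exact c3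

theorem Pt.meet (h : TB Ω) (la : LA Ω) (hV : ∀ v ∈ V, ∀ w ∈ V, v * w = w * v)
    (hV2 : ∀ v ∈ V, v * v = 1) (p : Pt Ω V R) (q : Pt Ω V R') {x y : G} (hx : x ∈ R) (hx' : x ∉ V)
    (hy : y ∈ R') (hy' : y ∉ V) (e : ⁅x, y⁆ ∈ V) : R = R' := by
  have h0 := H83.cj_eq_self_iff.1 (q.mv h la hV q hy hy hy' (p.n hx) e)
  obtain ⟨i, h1, h2, h3⟩ := q.ne
  by_cases c : x * i = i * x
  · exact la.eq _ p.mem _ q.mem i (p.cA x hx hx' i h2 c) h1 h3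
  have h4 := cjN (p.n hx) h2
  refine la.eq _ p.mem _ q.mem (i * (x * i * x⁻¹)) (p.cA x hx hx' _ (mul_mem h2 h4) ?_)
    (mul_mem h1 (cjN h0 h1)) fun a => c ?_
  · calc x * (i * (x * i * x⁻¹)) = x * i * x⁻¹ * (x * x * i) * x⁻¹ := by group
      _ = x * i * x⁻¹ * i * x := by rw [hV _ (p.sq x hx) i h2]; group
      _ = _ := by rw [hV _ h4 i h2]
  · rw [← mul_inv_eq_iff_eq_mul, eq_inv_of_mul_eq_one_right a, inv_eq_of_mul_eq_one_right (hV2 i h2)]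

theorem odd_of [Finite G] (h : TB Ω) (la : LA Ω) (hV : ∀ v ∈ V, ∀ w ∈ V, v * w = w * v)
    (hV2 : ∀ v ∈ V, v * v = 1) (p : Pt Ω V P) (q : Pt Ω V Q) (ne : P ≠ Q) {x y : G} (hx : x ∈ P)
    (hx' : x ∉ V) (hy : y ∈ Q) (hy' : y ∉ V) : ∃ k, Odd k ∧ (x * y) ^ k ∈ V := by
  refine (dihV (p.n hx) (q.n hy) (p.sq x hx) (q.sq y hy)).resolve_right ?_
  rintro ⟨l, hl, r, hr, h1, h2, h3⟩
  obtain ⟨R, t, h4, h5⟩ : ∃ R, Pt Ω V R ∧ r ∈ R ∧ r ∉ V := by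
    rcases hr with rfl | rfl
    · exact ⟨_, p.cj h hl, H83.conj_mem_cj hx, fun a => hx' ((nmem_iff hl).1 a)⟩
    · exact ⟨_, q.cj h hl, H83.conj_mem_cj hy, fun a => hy' ((nmem_iff hl).1 a)⟩
  obtain rfl := t.meet h la hV hV2 p h4 h5 hx hx' h1
  exact ne (p.meet h la hV hV2 q (mul_mem h4 (inv_mem hx)) h2 hy hy' h3)

theorem swap_of [Finite G] (h : TB Ω) (la : LA Ω) (hV : ∀ v ∈ V, ∀ w ∈ V, v * w = w * v)
    (hV2 : ∀ v ∈ V, v * v = 1) (p : Pt Ω V P) (q : Pt Ω V Q) (ne : P ≠ Q) {x y : G} (hx : x ∈ P)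
    (hx' : x ∉ V) (hy : y ∈ Q) (hy' : y ∉ V) : ∃ l ∈ closure ({x, y} : Set G), ∀ s,
      s = l * x * l⁻¹ → cj s P = Q ∧ cj s Q = P ∧ s * x * s⁻¹ * y⁻¹ ∈ V ∧ s * y * s⁻¹ * x⁻¹ ∈ V := by
  obtain ⟨k, o, hk⟩ := odd_of h la hV hV2 p q ne hx hx' hy hy'
  obtain ⟨l, hl, e⟩ := swapV (p.n hx) (q.n hy) (p.sq x hx) (q.sq y hy) o hk
  have h1 : l ∈ N[V] := (closure_le _).2 (Set.insert_subset (p.n hx)
    (Set.singleton_subset_iff.2 (q.n hy))) hl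
  refine ⟨l, hl, fun s hs => ?_⟩
  have h2 : s ∈ N[V] := hs ▸ mul_mem (mul_mem h1 (p.n hx)) (inv_mem h1)
  exact ⟨p.mv h la hV q hx hy hy' h2 (e s hs).1, q.mv h la hV p hy hx hx' h2 (e s hs).2, e s hs⟩

/-- A pair of points with axes `I`, `J`. -/
structure Pr (Ω : Set (Subgroup G)) (P Q I J : Subgroup G) : Prop where
  l : P ∈ Ω
  r : Q ∈ Ω
  ne : P ≠ Q
  le : I ≤ P
  le' : J ≤ Q
  sq : ∀ i ∈ I, i * i = 1
  sq' : ∀ i ∈ J, i * i = 1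
  cm : ∀ i ∈ I, ∀ j ∈ J, i * j = j * i
  br : ∀ x ∈ P, ∀ j ∈ J, ⁅x, j⁆ ∈ I
  br' : ∀ x ∈ Q, ∀ j ∈ I, ⁅x, j⁆ ∈ J

namespace Pr

theorem symm (e : Pr Ω P Q I J) : Pr Ω Q P J I :=
  ⟨e.r, e.l, e.ne.symm, e.le', e.le, e.sq', e.sq, fun i hi j hj => (e.cm j hj i hi).symm, e.br', e.br⟩

theorem vmem (e : Pr Ω P Q I J) (v : G) : v ∈ I ⊔ J ↔ ∃ i ∈ I, ∃ j ∈ J, v = i * j := by
  rw [H83.mem_sup_right_norm (le_N_of_comm e.cm)]
  simp only [eq_comm]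

theorem vsq (e : Pr Ω P Q I J) (v : G) (hv : v ∈ I ⊔ J) : v * v = 1 := by
  obtain ⟨i, hi, j, hj, rfl⟩ := (e.vmem v).1 hv
  rw [mul_assoc, ← mul_assoc j, ← e.cm i hi j hj, mul_assoc, e.sq' j hj, mul_one, e.sq i hi]

theorem vcomm (e : Pr Ω P Q I J) (v : G) (hv : v ∈ I ⊔ J) (w : G) (hw : w ∈ I ⊔ J) :
    v * w = w * v := by
  rw [← inv_eq_of_mul_eq_one_right (e.vsq _ (mul_mem hv hw)), mul_inv_rev,
    inv_eq_of_mul_eq_one_right (e.vsq v hv), inv_eq_of_mul_eq_one_right (e.vsq w hw)]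

theorem vle (e : Pr Ω P Q I J) : I ⊔ J ≤ N[P] :=
  sup_le (e.le.trans le_normalizer) (le_normalizer_iff.2 fun j hj x hx => by
    rw [show j * x * j⁻¹ = x * ⁅x⁻¹, j⁆ by simp only [commutatorElement_def]; group]
    exact mul_mem hx (e.le (e.br _ (inv_mem hx) j hj)))

variable (h : TB Ω)
include h

theorem one_of (e : Pr Ω P Q I J) {x : G} (h1 : x ∈ P) (h2 : x ∈ Q) : x = 1 :=
  mem_bot.1 (h.ti P e.l Q e.r e.ne ▸ mem_inf.2 ⟨h1, h2⟩)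

theorem vinf (e : Pr Ω P Q I J) : (I ⊔ J) ⊓ P = I := by
  refine le_antisymm (fun v hv => ?_) (le_inf le_sup_left e.le)
  obtain ⟨i, hi, j, hj, rfl⟩ := (e.vmem v).1 hv.1
  rwa [e.one_of h ((P.mul_mem_cancel_left (e.le hi)).1 hv.2) (e.le' hj), mul_one]

theorem br_ij (e : Pr Ω P Q I J) {a i j : G} (ha : a ∈ P) (hi : i ∈ P) (hj : j ∈ J) :
    ⁅a, i * j⁆ = ⁅a, j⁆ := by
  rw [br_mul, commutatorElement_eq_one_iff_mul_comm.2 (h.comm P e.l a ha i hi), one_mul,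
    h.comm P e.l i hi _ (e.le (e.br a ha j hj)), mul_inv_cancel_right]

theorem brk (e : Pr Ω P Q I J) (a : G) (ha : a ∈ P) (v : G) (hv : v ∈ I ⊔ J) : ⁅a, v⁆ ∈ I := by
  obtain ⟨i, hi, j, hj, rfl⟩ := (e.vmem v).1 hv
  rw [e.br_ij h ha (e.le hi) hj]
  exact e.br a ha j hj

theorem vnormL (e : Pr Ω P Q I J) : P ≤ N[I ⊔ J] := le_normalizer_iff.2 fun a ha v hv => by
  rw [show a * v * a⁻¹ = ⁅a, v⁆ * v by simp only [commutatorElement_def]; group]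
  exact mul_mem (mem_sup_left (e.brk h a ha v hv)) hv

theorem vnorm (e : Pr Ω P Q I J) : P ⊔ Q ≤ N[I ⊔ J] :=
  sup_le (e.vnormL h) (sup_comm I J ▸ e.symm.vnormL h)

theorem mul1 (e : Pr Ω P Q I J) (a : G) (ha : a ∈ P) (v : G) (hv : v ∈ I ⊔ J) (w : G)
    (hw : w ∈ I ⊔ J) : ⁅a, v * w⁆ = ⁅a, v⁆ * ⁅a, w⁆ := by
  rw [br_mul, e.vcomm v hv _ (mem_sup_left (e.brk h a ha w hw)), mul_inv_cancel_right]

theorem mul2 (e : Pr Ω P Q I J) (x : G) (hx : x ∈ P) (y : G) (hy : y ∈ P) (v : G)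
    (hv : v ∈ I ⊔ J) : ⁅x * y, v⁆ = ⁅x, v⁆ * ⁅y, v⁆ := by
  have h1 := e.le (e.brk h y hy v hv)
  calc ⁅x * y, v⁆ = x * ⁅y, v⁆ * x⁻¹ * ⁅x, v⁆ := by simp only [commutatorElement_def]; group
    _ = _ := by rw [h.comm P e.l x hx _ h1, mul_inv_cancel_right,
      h.comm P e.l _ h1 _ (e.le (e.brk h x hx v hv))]

theorem vcard [Finite G] (e : Pr Ω P Q I J) : Nat.card ↥(I ⊔ J) = Nat.card I * Nat.card J := by
  have := H1.card_sup_mul_card_inf_of_le_normalizer (le_N_of_comm e.cm)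
  rwa [le_bot_iff.1 (h.ti P e.l Q e.r e.ne ▸ inf_le_inf e.le e.le' : I ⊓ J ≤ ⊥),
    card_bot, mul_one] at this

theorem pt (e : Pr Ω P Q I J) (sq : ∀ x ∈ P, x * x ∈ I) (ne : ∃ i ∈ I, i ≠ 1)
    (c : ∀ x ∈ P, ∀ j ∈ J, j ≠ 1 → x * j = j * x → x ∈ I) : Pt Ω (I ⊔ J) P := by
  refine ⟨e.l, e.vnormL h, fun x hx => mem_sup_left (sq x hx), fun x hx h1 v hv h2 => ?_, ?_⟩
  · obtain ⟨i, hi, j, hj, rfl⟩ := (e.vmem v).1 hv
    rw [← commutatorElement_eq_one_iff_mul_comm, e.br_ij h hx (e.le hi) hj,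
      commutatorElement_eq_one_iff_mul_comm] at h2
    by_cases j1 : j = 1
    · rw [j1, mul_one]; exact e.le hi
    · exact absurd (mem_sup_left (c x hx j hj j1 h2)) h1
  · obtain ⟨i, hi, i1⟩ := ne
    exact ⟨i, e.le hi, mem_sup_left hi, i1⟩

end Pr

end Cfsg.Agent.H6.TB.Le
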